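/-
Abelian TI-subgroups that are not elementary abelian: points, edges, cliques.
-/
import Cfsg.Agent.Timm.W1

set_option autoImplicit false
set_option linter.unusedSectionVars false

open Cfsg Subgroup
open scoped commutatorElement

namespace CL.ATI

open CL.Even CL.Timm CL.Grp CL.WTI

variable {G : Type*} [Group G]

/-- `Ω₁(B)` for an abelian group `B` -/
abbrev om (B : Subgroup G) : Subgroup G := omegaOneCenter 2 B

/-- the elements of `N(B)` acting trivially on `Ω₁(B)` and on `B / Ω₁(B)` -/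
abbrev ob (B : Subgroup G) : Subgroup G := op B (om B)

/-- the group `Ω₁(B) Ω₁(P)` of an edge -/
abbrev ln (B P : Subgroup G) : Subgroup G := om B ⊔ om P

/-- an abelian TI `2`-subgroup that is neither cyclic nor elementary abelian -/
structure TB (B : Subgroup G) : Prop where
  isP : IsPGroup 2 B
  ab : B ≤ 𝒞(B)
  ti : ∀ g : G, cj g B = B ∨ cj g B ⊓ B = ⊥
  four : 4 ≤ Nat.card (om B)
  nel : ¬ B ≤ om B

/-- the structure of the pairs of points when there is an edge -/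
structure T1 (B : Subgroup G) : Prop extends TB B where
  sq : ∀ x ∈ B, x * x ∈ om B
  typ : ∀ P, Pt B P → P ≠ B → ∀ b ∈ B, b ≠ 1 → b ∈ 𝒩(P) →
    b ∈ om B ∧ om B ≤ 𝒞(om P) ∧ ∀ x ∈ B, ∀ a ∈ om P, ⁅x, a⁆ ∈ om B

/-- an edge -/
structure Eg (B P : Subgroup G) : Prop extends T1 B where
  pt : Pt B P
  ne : P ≠ B
  cm : om B ≤ 𝒞(om P)

/-- `E` is generated by a maximal clique through `B` -/
structure Cl (B E : Subgroup G) : Prop extends T1 B where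
  elem : IsElementaryAbelian 2 E
  gen : E ≤ ⨆ P : {P // Pt B P ∧ om P ≤ E}, om P.1
  max : ∀ P, Pt B P → om P ≤ 𝒞(E) → om P ≤ E
  mem : om B ≤ E

/-- `N(B)` is a maximal `2`-local subgroup of characteristic two -/
structure MC (B : Subgroup G) : Prop where
  max : ∀ R : Subgroup G, IsPGroup 2 R → R ≠ ⊥ → 𝒩(B) ≤ 𝒩(R) → 𝒩(R) ≤ 𝒩(B)
  chr : IsCharP 2 𝒩(B)

variable {B E H P P' S X : Subgroup G} {a b d g h k v x y : G}

theorem cj_om (g : G) (B : Subgroup G) : cj g (om B) = om (cj g B) := cj_ozc g B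

theorem cj_ln (g : G) (B P : Subgroup G) : cj g (ln B P) = ln (cj g B) (cj g P) := by rw [cj_sup, cj_om, cj_om]

theorem cj_op (g : G) (B V : Subgroup G) : cj g (op B V) = op (cj g B) (cj g V) := by
  ext x
  rw [mem_cj, WTI.mem_op, WTI.mem_op, ← cj_norm, ← cj_cent, mem_cj, mem_cj]
  refine and_congr_right' (and_congr_right' ⟨fun h y hy => mem_cj.2 ?_, fun h y hy => ?_⟩)
  · have := h _ (mem_cj.1 hy)
    rwa [show ⁅g⁻¹ * y * g, g⁻¹ * x * g⁆ = g⁻¹ * ⁅y, x⁆ * g by simp only [cel_def]; group] at this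
  · have := mem_cj.1 (h _ (conj_mem_cj g hy))
    rwa [show g⁻¹ * ⁅g * y * g⁻¹, x⁆ * g = ⁅y, g⁻¹ * x * g⁆ by simp only [cel_def]; group] at this

theorem om_sq (ha : a ∈ om B) : a * a = 1 := by rw [← sq]; exact (mem_ozc.1 ha).2.2

theorem om_comm (ha : a ∈ om B) (hx : x ∈ B) : x * a = a * x := comm_of_mem (ozc_le_cent B ha) hx

theorem card_om (hP : Pt B P) : Nat.card (om P) = Nat.card (om B) := by
  obtain ⟨g, rfl⟩ := hP; rw [← cj_om, card_cj]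

theorem ob_cel (h1 : g ∈ ob B) (hx : x ∈ B) : ⁅x, g⁆ ∈ om B := (WTI.mem_op.1 h1).2.2 x hx

theorem ob_cel' (h1 : g ∈ ob B) (hx : x ∈ B) : ⁅g, x⁆ ∈ om B := by
  rw [← commutatorElement_inv]; exact inv_mem (ob_cel h1 hx)

theorem ln_comm (B P : Subgroup G) : ln B P = ln P B := sup_comm _ _

theorem ob_cel_mul' (h1 : g ∈ ob B) (hx : x ∈ B) (hy : y ∈ B) : ⁅x * y, g⁆ = ⁅x, g⁆ * ⁅y, g⁆ := by
  rw [cel_mul_left, om_comm (ob_cel h1 hy) hx, mul_inv_cancel_right,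
    om_comm (ob_cel h1 hy) (ozc_le B (ob_cel h1 hx))]

theorem ob_cel_om (h1 : g ∈ ob B) (ha : a ∈ om B) : ⁅a, g⁆ = 1 := cel_eq_one.2 (comm_of_mem (op_le_cent h1) ha)

theorem ob_sq (h1 : g ∈ ob B) : g * g ∈ 𝒞(B) := mem_cent_iff.2 fun _ hx =>
  cel_eq_one.1 (by rw [op_cel_mul h1 h1 hx, om_sq (ob_cel h1 hx)])

/-- `(g x)² = g² [x, g] x²` -/
theorem ob_mul_sq (h1 : g ∈ ob B) (hx : x ∈ B) : g * x * (g * x) = g * g * ⁅x, g⁆ * (x * x) := by
  have e : g * x * (g * x) = g * (⁅x, g⁆ * g) * (x * x) := by simp only [cel_def]; group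
  rw [e, comm_of_mem (op_le_cent h1) (ob_cel h1 hx), ← mul_assoc g g]

theorem norm_ob : 𝒩(B) ≤ 𝒩(ob B) := norm_op le_rfl (norm_le_norm_ozc B)

namespace TB

variable (t : TB B)
include t

theorem mem_om : x ∈ om B ↔ x ∈ B ∧ x * x = 1 :=
  mem_ozc.trans ⟨fun h => ⟨h.1, by rw [← sq]; exact h.2.2⟩, fun h => ⟨h.1, t.ab h.1, by rw [sq]; exact h.2⟩⟩

theorem comm (hx : x ∈ B) (hy : y ∈ B) : x * y = y * x := comm_of_mem (t.ab hy) hx

theorem le_ob : B ≤ ob B := t.ab.trans (cent_le_op (ozc_le B))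

theorem conj (g : G) : TB (cj g B) where
  isP := isPGroup_cj t.isP g
  ab := by rw [← cj_cent]; exact cj_mono g t.ab
  ti x := (t.ti (g⁻¹ * x * g)).imp (fun e => by rw [← cj_cj_inv g (cj x (cj g B)), ← cj_mul x, ← cj_mul g⁻¹,
      ← mul_assoc, e]) fun e => by
    rw [← cj_cj_inv g (cj x (cj g B)), ← cj_mul x, ← cj_mul g⁻¹, ← mul_assoc, ← cj_inf, e, cj_eq_bot]
  four := by rw [← cj_om, card_cj]; exact t.four
  nel := by rw [← cj_om, cj_le_cj]; exact t.nel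

theorem of_pt (hP : Pt B P) : TB P := let ⟨g, e⟩ := hP; e ▸ t.conj g

/-- TI -/
theorem eq_of_mem_pt (hP : Pt B P) (hS : Pt B S) (h1 : d ∈ P) (h2 : d ∈ S) (h3 : d ≠ 1) : P = S := by
  obtain ⟨g, rfl⟩ := hS.symm.trans hP
  exact ((t.of_pt hS).ti g).resolve_right fun e => h3 (mem_bot.1 (e.le ⟨h1, h2⟩))

theorem eq_one (hP : Pt B P) (hne : P ≠ B) (h1 : d ∈ B) (h2 : d ∈ P) : d = 1 :=
  by_contra fun e => hne (t.eq_of_mem_pt hP (Pt.refl B) h2 h1 e)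

theorem mem_norm (h1 : d ∈ B) (h3 : d ≠ 1) (e : g * d * g⁻¹ ∈ B) : g ∈ 𝒩(B) :=
  cj_eq_iff_mem.1 (t.eq_of_mem_pt (Pt.of_cj g B) (Pt.refl B) (conj_mem_cj g h1) e (by simpa using h3))

/-- `C(d) ≤ N(P)` for `1 ≠ d ∈ P` -/
theorem norm_of_comm (hP : Pt B P) (h1 : d ∈ P) (h3 : d ≠ 1) (e : g * d = d * g) : g ∈ 𝒩(P) :=
  (t.of_pt hP).mem_norm h1 h3 (by rwa [e, mul_inv_cancel_right])

theorem exists_om : ∃ a ∈ om B, a ≠ 1 := (bot_or_exists_ne_one _).resolve_left fun e => by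
  have := t.four; rw [e, card_bot] at this; omega

theorem exists_not_om : ∃ x ∈ B, x ∉ om B := SetLike.not_le_iff_exists.1 t.nel

theorem norm_om : 𝒩(om B) ≤ 𝒩(B) := fun _ hg =>
  let ⟨_, ha, a1⟩ := t.exists_om; t.mem_norm (ozc_le B ha) a1 (ozc_le B (conj_mem hg ha))

theorem cent_om_le : 𝒞(om B) ≤ 𝒩(B) := (cent_le_norm _).trans t.norm_om

theorem eq_of_om_le (hP : Pt B P) (h : om P ≤ B) : P = B :=
  let ⟨_, ha, a1⟩ := (t.of_pt hP).exists_om; t.eq_of_mem_pt hP (Pt.refl B) (ozc_le P ha) (h ha) a1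

/-- products of elements of different points are of odd order modulo `E` if there are no edges modulo `E` -/
theorem odd_mod [Finite G] (hB : B ≤ H) (hH : H ≤ 𝒩(E)) (hE : E ≤ 𝒩(B)) (hs : ∀ x ∈ B, x * x ∈ E)
    (hn : ∀ g ∈ H, cj g B ≠ B → ax B (cj g B) ≤ E) (hg : g ∈ H) (hne : cj g B ≠ B) (hx : x ∈ B) (hx' : x ∉ E)
    (hy : y ∈ cj g B) (hy' : y ∉ E) : ∃ j, Odd j ∧ (x * y) ^ j ∈ E := by
  have := normal_subgroupOf_of_le_normalizer hH
  let π := QuotientGroup.mk' (E.subgroupOf H)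
  have e : ∀ z : H, π z = 1 ↔ (z : G) ∈ E := fun z => QuotientGroup.eq_one_iff z
  have hP : ∀ c ∈ H, cj c B ≤ H ∧ E ≤ 𝒩(cj c B) := fun c hc =>
    ⟨cj_le_of_le hB (le_normalizer hc), by rw [← cj_norm, ← cj_eq (hH hc)]; exact cj_mono c hE⟩
  have key : ∀ c ∈ H, ∀ c' ∈ H, ∀ u ∈ cj c B, u ∉ E → u ∈ 𝒩(cj c' B) → cj c' B = cj c B := fun c hc c' hc' u h1 h2 h3 => by
    by_contra h4
    refine h2 (mem_cj.2 (hn (c⁻¹ * c') (mul_mem (inv_mem hc) hc') (fun h => h4 (by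
      rw [← cj_cj_inv c (cj c' B), ← cj_mul c⁻¹, h])) ⟨mem_cj.1 h1, ?_⟩) |> (cj_eq (hH hc)).le)
    rw [cj_mul]
    have := (mem_norm_cj (g := c⁻¹)).2 h3
    rwa [inv_inv] at this
  have fix : ∀ c ∈ H, ∀ u : H, u.1 ∈ cj c B → u.1 ∉ E → ∀ z : H, π z * π u = π u * π z → z.1 ∈ 𝒩(cj c B) :=
    fun c hc u h1 h2 z h3 => by
    have h4 : (u⁻¹ * (z * u * z⁻¹) : H).1 ∈ E := (e _).1 (by
      rw [map_mul, map_mul, map_mul, h3, map_inv, map_inv]; group)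
    refine cj_eq_iff_mem.1 ((cj_mul _ _ _).symm.trans (key c hc _ (mul_mem z.2 hc) u h1 h2 ?_))
    have h5 := le_normalizer (conj_mem_cj (z : G) h1)
    rw [← cj_mul] at h5
    have h6 := mul_mem h5 (inv_mem ((hP _ (mul_mem z.2 hc)).2 h4))
    rwa [show (z : G) * u * (z : G)⁻¹ * ((u⁻¹ * (z * u * z⁻¹) : H) : G)⁻¹ = u by simp [mul_assoc]] at h6
  let u : H := ⟨x, hB hx⟩
  let w : H := ⟨y, (hP g hg).1 hy⟩
  by_contra hc
  have u2 : π u * π u = 1 := by rw [← map_mul]; exact (e _).2 (hs x hx)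
  have w2 : π w * π w = 1 := by
    rw [← map_mul]
    refine (e _).2 ((cj_eq (hH hg)).le (mem_cj.2 ?_))
    simpa [mul_assoc] using hs _ (mem_cj.1 hy)
  obtain ⟨z, -, z1, -, h1, h2, c, -, h3⟩ := dihedral u2 w2 (Nat.not_odd_iff_even.1 fun ho =>
    hc ⟨_, ho, (e ((u * w) ^ _)).1 (by rw [map_pow, map_mul, pow_orderOf_eq_one])⟩)
  obtain ⟨z, rfl⟩ := QuotientGroup.mk'_surjective _ z
  obtain ⟨c, rfl⟩ := QuotientGroup.mk'_surjective _ c
  have hx1 : x ∈ cj 1 B := by rwa [cj_one]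
  have f1 := fix 1 (one_mem _) u hx1 hx' z h1
  have f2 := fix g hg w hy hy' z h2
  rw [cj_one] at f1
  obtain ⟨c', hc', s, s1, s2, s3⟩ : ∃ c' ∈ H, ∃ s : H, s.1 ∈ cj c' B ∧ s.1 ∉ E ∧ π s = π u * π z := by
    rcases h3 with h3 | h3
    · exact ⟨c, c.2, c * u * c⁻¹, conj_mem_cj _ hx, fun h => hx' (by simpa [mul_assoc] using conj_mem' (hH c.2) h),
        by rw [map_mul, map_mul, map_inv]; exact h3⟩
    · exact ⟨c * g, mul_mem c.2 hg, c * w * c⁻¹, by rw [cj_mul]; exact conj_mem_cj _ hy,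
        fun h => hy' (by simpa [mul_assoc] using conj_mem' (hH c.2) h), by rw [map_mul, map_mul, map_inv]; exact h3⟩
  have h4 : ((u * z)⁻¹ * s : H).1 ∈ E := (e _).1 (by rw [map_mul, map_inv, map_mul, s3, inv_mul_cancel])
  have h5 : s.1 ∈ 𝒩(B) := by
    have := mul_mem (mul_mem (le_normalizer hx) f1) (hE h4)
    rwa [show x * z * ((u * z)⁻¹ * s : H).1 = s by simp [u, mul_assoc]] at this
  have h6 := key c' hc' 1 (one_mem _) s s1 s2 (by rwa [cj_one])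
  rw [← h6, cj_one] at s1
  have h7 : x⁻¹ * s ∈ E := hn g hg hne ⟨B.mul_mem (B.inv_mem hx) s1, by
    have := mul_mem f2 ((hP g hg).2 h4)
    rwa [show (z : G) * ((u * z)⁻¹ * s : H).1 = x⁻¹ * s by simp [u, mul_assoc]] at this⟩
  refine z1 ?_
  have h8 : π (u⁻¹ * s) = 1 := (e _).2 h7
  rwa [map_mul, map_inv, s3, inv_mul_cancel_left] at h8

end TB

namespace T1

variable (t : T1 B)
include t

theorem conj (g : G) : T1 (cj g B) where
  toTB := t.toTB.conj g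
  sq x hx := by
    rw [← cj_om, mem_cj]
    simpa [mul_assoc] using t.sq _ (mem_cj.1 hx)
  typ P hP hne b hb b1 hn := by
    obtain ⟨h1, h2, h3⟩ := t.typ (cj g⁻¹ P) (((Pt.of_cj g B).trans hP).cj_right _)
      (fun e => hne (by rw [← e, cj_cj_inv])) _ (mem_cj.1 hb) (fun e => b1 (by rw [show b = g * (g⁻¹ * b * g) * g⁻¹ by group, e]; group))
      (by simpa only [inv_inv] using (mem_norm_cj (g := g⁻¹)).2 hn)
    rw [← cj_cj_inv g P, ← cj_om, ← cj_om, ← cj_cent]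
    refine ⟨mem_cj.2 h1, cj_mono g h2, fun x hx a ha => mem_cj.2 ?_⟩
    have := h3 _ (mem_cj.1 hx) _ (mem_cj.1 ha)
    rwa [show ⁅g⁻¹ * x * g, g⁻¹ * a * g⁆ = g⁻¹ * ⁅x, a⁆ * g by simp only [cel_def]; group] at this

theorem of_pt (hP : Pt B P) : T1 P := let ⟨g, e⟩ := hP; e ▸ t.conj g

/-- an element of `B` outside `Ω₁(B)` fixes only the point `B` -/
theorem eq_of_norm (hP : Pt B P) (hx : x ∈ B) (hx' : x ∉ om B) (h : x ∈ 𝒩(P)) : P = B :=
  by_contra fun e => hx' (t.typ P hP e x hx (by rintro rfl; exact hx' (one_mem _)) h).1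

/-- weak closure -/
theorem wc (hP : Pt B P) (h : P ≤ 𝒩(B)) : P = B :=
  let ⟨_, hx, hx'⟩ := (t.of_pt hP).exists_not_om; ((t.of_pt hP).eq_of_norm hP.symm hx hx' (h hx)).symm

theorem eg_of_mem (hP : Pt B P) (hne : P ≠ B) (hb : b ∈ B) (b1 : b ≠ 1) (h : b ∈ 𝒩(P)) : Eg B P :=
  ⟨t, hP, hne, (t.typ P hP hne b hb b1 h).2.1⟩

theorem eg_of_comm (hP : Pt B P) (hne : P ≠ B) (hb : b ∈ B) (b1 : b ≠ 1) (hd : d ∈ P) (d1 : d ≠ 1)
    (e : b * d = d * b) : Eg B P := t.eg_of_mem hP hne hb b1 (t.norm_of_comm hP hd d1 e)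

/-- commuting elements of two points -/
theorem cent_of_comm (hP : Pt B P) (hb : b ∈ B) (b1 : b ≠ 1) (hd : d ∈ P) (d1 : d ≠ 1) (e : b * d = d * b) :
    om B ≤ 𝒞(om P) := by
  by_cases h : P = B
  · exact h ▸ elem_le_cent (ozc_elem _)
  · exact (t.eg_of_comm hP h hb b1 hd d1 e).cm

variable [Finite G]

/-- a `2`-group containing a point normalizes it -/
theorem le_norm_of_pgroup (hP : IsPGroup 2 S) (hB : B ≤ S) : S ≤ 𝒩(B) := by
  by_contra hn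
  have h1 : S ⊓ 𝒩(B) < S := lt_of_le_of_ne inf_le_left fun e => hn (e ▸ inf_le_right)
  obtain ⟨g, hg, hg'⟩ := SetLike.exists_of_lt (lt_inf_normalizer_of_isPGroup hP h1)
  exact hg' ⟨hg.1, cj_eq_iff_mem.1 (t.wc (Pt.of_cj g B)
    ((cj_le_of_le (le_inf hB le_normalizer) hg.2).trans inf_le_right))⟩

/-- points inside `X` are conjugate in `X` -/
theorem exists_cj_eq (hP : Pt B P) (hB : B ≤ X) (hPX : P ≤ X) : ∃ g ∈ X, cj g B = P := by
  obtain ⟨S, hS, h1⟩ := exists_isSylowIn_ge (t.of_pt hP).isP hPX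
  obtain ⟨g, hg, h2⟩ := syl_conj_le hS t.isP hB
  exact ⟨g, hg, ((t.conj g).wc ((Pt.of_cj g B).symm.trans hP)
    (h1.trans ((t.conj g).le_norm_of_pgroup hS.isPGroup h2))).symm⟩

end T1

namespace Eg

variable (e : Eg B P)
include e

theorem t' : T1 P := e.toT1.of_pt e.pt

theorem symm : Eg P B := ⟨e.t', e.pt.symm, e.ne.symm, le_centralizer_iff.1 e.cm⟩

theorem conj (g : G) : Eg (cj g B) (cj g P) :=
  ⟨e.toT1.conj g, e.pt.conj g, fun h => e.ne (cj_inj.1 h), by rw [← cj_om, ← cj_om, ← cj_cent]; exact cj_mono g e.cm⟩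

theorem cj_right (hg : g ∈ 𝒩(B)) : Eg B (cj g P) := by simpa only [cj_eq hg] using e.conj g

theorem om_le_norm : om B ≤ 𝒩(P) := e.cm.trans e.t'.cent_om_le

theorem mem_om (hx : x ∈ B) (h : x ∈ 𝒩(P)) : x ∈ om B := by_contra fun hx' => e.ne (e.eq_of_norm e.pt hx hx' h)

theorem eq_one' (h1 : d ∈ B) (h2 : d ∈ P) : d = 1 := e.eq_one e.pt e.ne h1 h2

theorem le_ob : om P ≤ ob B := fun a ha => WTI.mem_op.2 ⟨e.symm.om_le_norm ha, e.symm.cm ha, fun x hx =>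
  let ⟨_, hb, b1⟩ := e.exists_om; (e.typ P e.pt e.ne _ (ozc_le B hb) b1 (e.om_le_norm hb)).2.2 x hx a ha⟩

theorem cel_mem (hx : x ∈ B) (ha : a ∈ om P) : ⁅x, a⁆ ∈ om B := ob_cel (e.le_ob ha) hx

theorem eq_one_of_cel (hx : x ∈ B) (hx' : x ∉ om B) (ha : a ∈ P) (h : ⁅x, a⁆ = 1) : a = 1 :=
  by_contra fun a1 => hx' (e.mem_om hx (e.norm_of_comm e.pt ha a1 (cel_eq_one.1 h)))

theorem mem_om_of_cel (hx : x ∈ B) (ha : a ∈ P) (a1 : a ≠ 1) (h : ⁅x, a⁆ = 1) : x ∈ om B :=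
  by_contra fun hx' => a1 (e.eq_one_of_cel hx hx' ha h)

theorem cel_inj (hx : x ∈ B) (hx' : x ∉ om B) (ha : a ∈ om P) (hb : b ∈ om P) (h : ⁅x, a⁆ = ⁅x, b⁆) : a = b := by
  have := e.eq_one_of_cel hx hx' (ozc_le P (mul_mem ha hb))
    (by rw [op_cel_mul (e.le_ob ha) (e.le_ob hb) hx, h, om_sq (e.cel_mem hx hb)])
  rw [← mul_one a, ← om_sq hb, ← mul_assoc, this, one_mul]

theorem exists_cel [Finite G] (hx : x ∈ B) (hx' : x ∉ om B) (hv : v ∈ om B) : ∃ a ∈ om P, ⁅x, a⁆ = v :=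
  surj_of_inj (card_om e.pt).ge (fun a => ⁅x, a⁆) (fun _ ha => e.cel_mem hx ha)
    (fun _ ha _ hb => e.cel_inj hx hx' ha hb) hv

theorem elem_ln : IsElementaryAbelian 2 (ln B P) := elem_sup (ozc_elem _) (ozc_elem _) e.cm

theorem mem_ln : x ∈ ln B P ↔ ∃ v ∈ om B, ∃ a ∈ om P, v * a = x := mem_sup_nr (e.cm.trans (cent_le_norm _))

theorem ln_le_ob : ln B P ≤ ob B := sup_le ((ozc_le B).trans e.toTB.le_ob) e.le_ob

theorem le_norm_ln : B ≤ 𝒩(ln B P) := le_norm_of_commutator_le (commutator_le.2 fun _ hy _ hx =>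
  mem_sup_left (ob_cel' (e.ln_le_ob hy) hx))

theorem sup_le_norm_ln : B ⊔ P ≤ 𝒩(ln B P) := sup_le e.le_norm_ln (ln_comm B P ▸ e.symm.le_norm_ln)

theorem mem_om_of_ln (hx : x ∈ B) (h : x ∈ ln B P) : x ∈ om B :=
  e.toTB.mem_om.2 ⟨hx, by rw [← sq]; exact e.elem_ln.2 x h⟩

theorem card_ln [Finite G] : Nat.card (ln B P) = Nat.card (om B) * Nat.card (om B) := by
  have h := card_sup_mul_card_inf (H := om B) (K := om P) (e.cm.trans (cent_le_norm _))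
  rwa [show om B ⊓ om P = ⊥ from eq_bot_iff.2 fun _ hd => e.eq_one' (ozc_le B hd.1) (ozc_le P hd.2), card_bot,
    mul_one, card_om e.pt] at h

theorem card_le [Finite G] : Nat.card B ≤ Nat.card (om B) * Nat.card (om B) := by
  obtain ⟨a, ha, a1⟩ := e.t'.exists_om
  have := card_le_mul_of_fib (A := B) (K := om B) (fun x => ⁅x, a⁆) (fun _ hx => e.cel_mem hx ha) fun x hx y hy h =>
    e.mem_om_of_cel (mul_mem (inv_mem hx) hy) (ozc_le P ha) a1 (mul_left_cancel (a := ⁅x, a⁆) (by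
      rw [← ob_cel_mul' (e.le_ob ha) hx (mul_mem (inv_mem hx) hy), mul_inv_cancel_left, mul_one]; exact h.symm))
  rwa [inf_eq_right.2 (ozc_le B)] at this

/-- an element of `ob B` fixing `P` centralizes `Ω₁(P)` -/
theorem ob_cent (h1 : g ∈ ob B) (h2 : g ∈ 𝒩(P)) : g ∈ 𝒞(om P) := mem_cent_iff.2 fun a ha => by
  obtain ⟨x, hx, hx'⟩ := e.exists_not_om
  have ha' : g * a * g⁻¹ ∈ om P := conj_mem (norm_le_norm_ozc P h2) ha
  have e1 : g * x * g⁻¹ = ⁅x, g⁆⁻¹ * x := by simp only [cel_def]; group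
  have := CL.Timm.cel_conj g x a
  rw [conj_eq_of_mem (op_le_cent h1) (e.cel_mem hx ha), e1, ob_cel_mul' (e.le_ob ha') (inv_mem (ozc_le B (ob_cel h1 hx))) hx,
    ob_cel_om (e.le_ob ha') (inv_mem (ob_cel h1 hx)), one_mul] at this
  exact (mul_inv_eq_iff_eq_mul.1 (e.cel_inj hx hx' ha ha' this).symm).symm

theorem cent_ln_of_ob (h1 : g ∈ ob B) (h2 : g ∈ 𝒩(P)) : g ∈ 𝒞(ln B P) := by
  rw [cent_sup]; exact ⟨op_le_cent h1, e.ob_cent h1 h2⟩

/-- `C(Ω₁(B) Ω₁(P))` acts trivially on `B / Ω₁(B)` -/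
theorem cent_le_ob : 𝒞(ln B P) ≤ ob B := fun g hg => by
  have h1 : g ∈ 𝒞(om B) := cent_mono le_sup_left hg
  refine WTI.mem_op.2 ⟨e.cent_om_le h1, h1, fun x hx => ?_⟩
  obtain ⟨a, ha, a1⟩ := e.t'.exists_om
  have hx' := conj_mem (e.cent_om_le h1) (inv_mem hx)
  have := CL.Timm.cel_conj g x⁻¹ a
  rw [conj_eq_of_mem h1 (e.cel_mem (inv_mem hx) ha), conj_eq_of_mem hg (mem_sup_right ha)] at this
  refine e.mem_om_of_cel (cel_mem_left hx (e.cent_om_le h1)) (ozc_le P ha) a1 ?_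
  rw [show ⁅x, g⁆ = x * (g * x⁻¹ * g⁻¹) by simp only [cel_def]; group, ob_cel_mul' (e.le_ob ha) hx hx', ← this,
    ← ob_cel_mul' (e.le_ob ha) hx (inv_mem hx), mul_inv_cancel, commutatorElement_one_left]

theorem cent_le_ob' : 𝒞(ln B P) ≤ ob P := ln_comm B P ▸ e.symm.cent_le_ob

theorem sq_eq_one (h1 : g ∈ 𝒞(ln B P)) (h2 : g * g ∈ B) : g * g = 1 := by
  obtain ⟨x, hx, hx'⟩ := e.t'.exists_not_om
  exact e.symm.eq_one_of_cel hx hx' h2 (cel_eq_one.2 (comm_of_mem (ob_sq (e.cent_le_ob' h1)) hx))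

end Eg

namespace Cl

variable (c : Cl B E)
include c

theorem ab' : E ≤ 𝒞(E) := elem_le_cent c.elem

theorem sq' (h : x ∈ E) : x * x = 1 := by rw [← pow_two]; exact c.elem.2 x h

theorem eg (hP : Pt B P) (h : om P ≤ E) (hne : P ≠ B) : Eg B P :=
  ⟨c.toT1, hP, hne, c.mem.trans (c.ab'.trans (cent_mono h))⟩

theorem le_of (h : ∀ P, Pt B P → om P ≤ E → om P ≤ X) : E ≤ X := c.gen.trans (iSup_le fun P => h _ P.2.1 P.2.2)

/-- change of the base point -/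
theorem of_pt' (hP : Pt B P) (h : om P ≤ E) : Cl P E :=
  ⟨c.toT1.of_pt hP, c.elem, c.le_of fun S h1 h2 => le_iSup_of_le ⟨S, hP.symm.trans h1, h2⟩ le_rfl,
    fun S h1 => c.max S (hP.trans h1), h⟩

theorem conj (g : G) : Cl (cj g B) (cj g E) where
  toT1 := c.toT1.conj g
  elem := elem_map _ c.elem
  gen := cj_le_iff.2 (c.le_of fun S h1 h2 => le_cj_iff.2 (by
    rw [inv_inv, cj_om]
    exact le_iSup_of_le ⟨cj g S, h1.conj g, cj_om g S ▸ cj_mono g h2⟩ le_rfl))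
  max S h1 h2 := by
    rw [← cj_cent, le_cj_iff, cj_om] at h2
    rw [le_cj_iff, cj_om]
    exact c.max _ (((Pt.of_cj g B).trans h1).cj_right _) h2
  mem := cj_om g B ▸ cj_mono g c.mem

theorem cj_right (hg : g ∈ 𝒩(B)) : Cl B (cj g E) := by simpa only [cj_eq hg] using c.conj g

theorem le_ob : E ≤ ob B := c.le_of fun P h1 h2 => by
  by_cases h : P = B
  · exact h ▸ (ozc_le P).trans (c.toT1.of_pt h1).le_ob
  · exact (c.eg h1 h2 h).le_ob

theorem le_norm : B ≤ 𝒩(E) := le_norm_of_commutator_le (commutator_le.2 fun _ hy _ hx =>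
  c.mem (ob_cel' (c.le_ob hy) hx))

theorem cj_mem (hg : g ∈ 𝒩(E)) (h : om P ≤ E) : om (cj g P) ≤ E := cj_om g P ▸ cj_le_of_le h hg

theorem mem_om' (hx : x ∈ B) (h : x ∈ E) : x ∈ om B := c.toTB.mem_om.2 ⟨hx, c.sq' h⟩

/-- a point with a non-trivial element in `C(E)` belongs to the clique -/
theorem om_le_of_cent (hP : Pt B P) (hd : d ∈ P) (d1 : d ≠ 1) (h : d ∈ 𝒞(E)) : om P ≤ E :=
  c.max P hP (le_centralizer_iff.1 (c.le_of fun S h1 h2 =>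
    let ⟨_, ha, a1⟩ := (c.toT1.of_pt h1).exists_om
    (c.toT1.of_pt h1).cent_of_comm (h1.symm.trans hP) (ozc_le S ha) a1 hd d1 (comm_of_mem h (h2 ha))))

/-- elements of different points of a clique have a product of odd order modulo `E` -/
theorem odd [Finite G] (hP : Pt B P) (h : om P ≤ E) (hne : P ≠ B) (hx : x ∈ B) (hx' : x ∉ om B) (hy : y ∈ P)
    (hy' : y ∉ om P) : ∃ j, Odd j ∧ (x * y) ^ j ∈ E := by
  obtain ⟨g, hg, rfl⟩ := c.exists_cj_eq hP c.le_norm (c.of_pt' hP h).le_norm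
  exact c.odd_mod c.le_norm le_rfl (c.le_ob.trans op_le_norm) (fun x hx => c.mem (c.sq x hx))
    (fun k hk e z hz => c.mem ((c.eg (Pt.of_cj k B) (c.cj_mem hk c.mem) e).mem_om hz.1 hz.2)) hg hne hx
    (fun e => hx' (c.mem_om' hx e)) hy fun e => hy' ((c.of_pt' hP h).mem_om' hy e)

end Cl

/-- every edge lies in a maximal clique -/
theorem Eg.exists_cl [Finite G] (e : Eg B P) : ∃ E, Cl B E ∧ om P ≤ E := by
  let 𝓢 : Set (Subgroup G) := {E | IsElementaryAbelian 2 E ∧ ln B P ≤ E ∧ E ≤ ⨆ S : {S // Pt B S ∧ om S ≤ E}, om S.1}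
  obtain ⟨E, ⟨h1, h2, h3⟩, h4⟩ := Set.exists_max_image 𝓢 (fun E => Nat.card E) (Set.toFinite _)
    ⟨ln B P, e.elem_ln, le_rfl, sup_le (le_iSup_of_le ⟨B, Pt.refl B, le_sup_left⟩ le_rfl)
      (le_iSup_of_le ⟨P, e.pt, le_sup_right⟩ le_rfl)⟩
  refine ⟨E, ⟨e.toT1, h1, h3, fun S hS h5 => ?_, le_sup_left.trans h2⟩, le_sup_right.trans h2⟩
  refine le_sup_left.trans (eq_of_le_of_card_ge le_sup_right (h4 (om S ⊔ E) ⟨elem_sup (ozc_elem _) h1 h5,
    h2.trans le_sup_right, sup_le (le_iSup_of_le ⟨S, hS, le_sup_left⟩ le_rfl) (h3.trans (iSup_le fun T =>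
      le_iSup_of_le ⟨T.1, T.2.1, T.2.2.trans le_sup_right⟩ le_rfl))⟩)).ge

end CL.ATI
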