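/-
A TI maximal abelian normal elementary 2-subgroup of a group of characteristic 2 is "large".
-/
import Cfsg.Agent.Timm.Line

set_option autoImplicit false

open Cfsg Subgroup
open scoped commutatorElement

namespace CL.Timm

open CL.Even

variable {G : Type*} [Group G] [Finite G] {V P : Subgroup G}

theorem Spec.full (S : Spec V P) {g h : G} (hle : cj g V ≤ P) (hne : cj g V ≠ V) (hle₁ : cj h V ≤ P)
    (hc : ¬ cj h V ≤ 𝒞(cj g V)) {w : G} (hw : w ∈ cj g V) (h1 : w ≠ 1) {u : G} (hu : u ∈ V) :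
    ∃ y ∈ cj h V, ⁅y, w⁆ = u := by
  have hne₁ : cj h V ≠ V := fun e => hc (by rw [e]; exact le_centralizer_iff.1 (hle.trans S.cent))
  refine surj_of_inj (card_cj h V).ge (fun y => ⁅y, w⁆) (fun y hy => S.cel _ (hle₁ hy) _ (hle hw)) ?_ hu
  intro a ha a' ha' e
  by_contra hne'
  have h2 : a * a' ≠ 1 := fun e => hne' (by
    rw [mul_eq_one_iff_eq_inv, (S.toTI.conj h).inv_eq ha'] at e; exact e)
  have h3 : a * a' ∈ 𝒞(cj g V) := S.mem_cent hle hne hw h1 (hle₁ (mul_mem ha ha')) (cel_eq_one.1 (by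
    rw [S.mul_left (hle₁ ha) (hle₁ ha') (hle hw), e, S.sq (S.cel _ (hle₁ ha') _ (hle hw))]))
  exact hc (le_centralizer_iff.1 fun w' hw' =>
    S.mem_cent hle₁ hne₁ (mul_mem ha ha') h2 (hle hw') (comm_of_mem h3 hw'))

theorem Spec.center_le (S : Spec V P) {g h : G} (hle : cj g V ≤ P) (hne : cj g V ≠ V) (hle₁ : cj h V ≤ P)
    (hc : ¬ cj h V ≤ 𝒞(cj g V)) : P ⊓ 𝒞(cj g V) ⊓ 𝒞(P ⊓ 𝒞(cj g V)) ≤ V ⊔ cj g V := by
  have hne₁ : cj h V ≠ V := fun e => hc (by rw [e]; exact le_centralizer_iff.1 (hle.trans S.cent))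
  rintro z ⟨⟨hz, hz'⟩, hz''⟩
  obtain ⟨y, hy, hyc⟩ := not_forall₂.1 hc |>.imp fun _ h => exists_prop.1 h
  have hy1 : y ≠ 1 := by rintro rfl; exact hyc (one_mem _)
  obtain ⟨w, hw, e⟩ := S.exists_cel hle hne (hle₁ hy) hyc (S.cel _ (hle₁ hy) _ hz)
  have hzw : z * w ∈ P := mul_mem hz (hle hw)
  have h1 : z * w ∈ 𝒞(cj h V) := S.mem_cent hle₁ hne₁ hy hy1 hzw (cel_eq_one.1 (by
    rw [S.mul_right (hle₁ hy) hz (hle hw), e, S.sq (S.cel _ (hle₁ hy) _ hz)])).symm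
  obtain ⟨⟨w₀, hw₀⟩, hw1⟩ := ne_bot_iff_exists_ne_one.1 (show cj g V ≠ ⊥ from fun e => hne (by
    rw [cj_eq_bot.1 e, cj_bot]))
  have hw1' : w₀ ≠ 1 := fun e => hw1 (Subtype.ext e)
  have h2 : z * w ∈ V := S.mem_of_cent hzw fun y' hy' => by
    obtain ⟨a, ha, e'⟩ := S.full hle hne hle₁ hc hw₀ hw1' (S.cel _ hy' _ (hle hw₀))
    have h3 : a * y' ∈ P ⊓ 𝒞(cj g V) := ⟨mul_mem (hle₁ ha) hy', S.mem_cent hle hne hw₀ hw1'
      (mul_mem (hle₁ ha) hy') (cel_eq_one.1 (by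
        rw [S.mul_left (hle₁ ha) hy' (hle hw₀), e', S.sq (S.cel _ hy' _ (hle hw₀))]))⟩
    have h4 := S.mul_right hzw (hle₁ ha) hy'
    rw [cel_eq_one.2 (comm_of_mem h1 ha).symm, one_mul, S.mul_left hz (hle hw) h3.1,
      cel_eq_one.2 (comm_of_mem hz'' h3).symm, cel_eq_one.2 (comm_of_mem h3.2 hw), one_mul] at h4
    exact h4.symm
  have := mul_mem (mem_sup_left h2 : _ ∈ V ⊔ cj g V) (inv_mem (mem_sup_right hw))
  rwa [mul_inv_cancel_right] at this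

theorem Spec.line (S : Spec V P)
    (hex : ∀ g, cj g V ≤ P → cj g V ≠ V → ∃ h, cj h V ≤ P ∧ ¬ cj h V ≤ 𝒞(cj g V))
    {g : G} (hle : cj g V ≤ P) (hne : cj g V ≠ V) : Line V P (cj g V) (cj g P) := by
  have hf : ∀ g, cj g V ≤ P → cj g V ≠ V → ∀ w ∈ cj g V, w ≠ 1 → ∀ u ∈ V, ∃ y ∈ P, ⁅y, w⁆ = u :=
    fun g hle hne w hw h1 u hu => by
      obtain ⟨h, h2, h3⟩ := hex g hle hne
      obtain ⟨y, hy, e⟩ := S.full hle hne h2 h3 hw h1 hu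
      exact ⟨y, h2 hy, e⟩
  obtain ⟨h, h2, h3⟩ := hex g hle hne
  have hle' := S.le_cj hle hne (hf g hle hne) (S.center_le hle hne h2 h3)
  refine ⟨S, ⟨g, rfl, rfl⟩, hle, hle', hne, fun e => hne (by rw [e, cj_bot]), hf g hle hne, fun u hu h1 w hw => ?_⟩
  obtain ⟨y, hy, e⟩ := hf g⁻¹ (le_cj_iff.1 hle') (fun e => hne ((congrArg (fun X => cj g X) e).symm.trans
    (cj_cj_inv g V))) _
    (conj_mem_cj g⁻¹ hu) (fun e => h1 (conj_eq_one_iff.1 e)) _ (mem_cj.1 hw)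
  refine ⟨_, conj_mem_cj g hy, ?_⟩
  have := cel_conj g y (g⁻¹ * u * g⁻¹⁻¹)
  rw [e] at this
  simpa [mul_assoc] using this.symm

section Max

variable (hmax : ∀ A : Subgroup G, A ≤ 𝒞(V) → A ≤ 𝒞(A) → 𝒩(V) ≤ 𝒩(A) → A ≤ V)
include hmax

theorem spec_of_max (hV : TI V) (hch : IsCharP 2 𝒩(V)) : Spec V (pCoreOf 2 𝒩(V) ⊓ 𝒞(V)) := by
  set P := pCoreOf 2 𝒩(V) ⊓ 𝒞(V) with hP
  have hVP : V ≤ P := le_inf (le_core le_normalizer (elem_isP hV.elem) le_rfl) (elem_le_cent hV.elem)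
  have hn : 𝒩(V) ≤ 𝒩(P) := le_norm_inf (self_le_norm_core _) (norm_le_norm_cent _)
  have hPp : IsPGroup 2 P := (core_isP _).to_le inf_le_left
  have hc : ∀ {x v : G}, x ∈ P → v ∈ V → x * v * x⁻¹ = v := fun hx hv => conj_eq_of_mem hx.2 hv
  set Z := P ⊓ cmod P V with hZ
  have hnZ : 𝒩(V) ≤ 𝒩(Z) := le_norm_inf hn (le_norm_cmod hn le_rfl)
  have hC : P ⊓ 𝒞(Z) ≤ V := by
    by_contra hC
    have hnC : 𝒩(V) ≤ 𝒩(P ⊓ 𝒞(Z)) := le_norm_inf hn (le_norm_cent hnZ)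
    have hPn : P ≤ 𝒩(V) := inf_le_right.trans (cent_le_norm _)
    obtain ⟨i, h1, h2⟩ := exists_iter_not_le (exists_iter_eq_bot (hPp.to_le inf_le_left) hPp (hPn.trans hnC)) hC
    have h3 := iter_le (hPn.trans hnC) i
    have h4 : iterCommutator (P ⊓ 𝒞(Z)) P i ≤ Z := le_inf (h3.trans inf_le_left)
      (le_cmod (h3.trans (inf_le_left.trans hPn)) (by rwa [commutator_comm]))
    exact h1 (hmax _ (h3.trans (inf_le_left.trans inf_le_right)) ((h3.trans inf_le_right).trans (cent_mono h4))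
      (le_norm_iter hnC hn i))
  have hm : ∀ {x y z : G}, x ∈ P → y ∈ P → z ∈ Z → ⁅x * y, z⁆ = ⁅y, z⁆ * ⁅x, z⁆ := fun hx hy hz => by
    rw [cel_mul_left, hc hx (hz.2.2 _ hy)]
  have hsq : ∀ x ∈ P, x * x ∈ V := fun x hx => hC ⟨mul_mem hx hx, mem_cent_iff.2 fun z hz => (cel_eq_one.1 (by
    rw [hm hx hx hz, hV.sq (hz.2.2 _ hx)])).symm⟩
  refine ⟨hV, hVP, inf_le_right, fun x hx y hy => ?_, hsq, ?_, hn⟩
  · have e : ⁅x, y⁆ = (x * y) * (x * y) * (y⁻¹ * (x⁻¹ * x⁻¹) * y) * (y⁻¹ * y⁻¹) := by rw [cel_def]; group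
    rw [e]
    exact mul_mem (mul_mem (hsq _ (mul_mem hx hy)) (conj_mem' (cent_le_norm _ hy.2) (hsq _ (inv_mem hx))))
      (hsq _ (inv_mem hy))
  · have h1 : 𝒩(V) ⊓ 𝒞(P) ≤ 𝒞(V) := inf_le_right.trans (cent_mono hVP)
    have h2 : 𝒩(V) ≤ 𝒩(𝒩(V) ⊓ 𝒞(P)) := le_norm_inf le_normalizer (le_norm_cent hn)
    have h3 := hch.isPGroup_of_cent (elem_isP hV.elem) le_normalizer inf_le_left h1 ((res_le _).trans inf_le_right)
    exact hmax _ h1 (inf_le_right.trans (cent_mono (le_inf (le_core inf_le_left h3 h2) h1))) h2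

theorem Spec.line_of_max (S : Spec V P) {g : G} (hle : cj g V ≤ P) (hne : cj g V ≠ V) :
    Line V P (cj g V) (cj g P) := by
  refine S.line (fun g hle hne => ?_) hle hne
  by_contra hc
  push Not at hc
  have h1 : ∀ m ∈ 𝒩(V), cj m (cj g V) ≤ P := fun m hm => cj_le_of_le hle (S.norm hm)
  refine hne (eq_of_le_of_card_ge ((le_ncl 𝒩(V) _).trans (hmax _ ((ncl_le hle S.norm).trans S.cent) ?_
    (le_norm_ncl _ _))) (card_cj g V).ge)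
  refine ncl_le_iff.2 fun m hm => le_centralizer_iff.1 (ncl_le_iff.2 fun m' hm' => ?_)
  rw [← cj_cent, le_cj_iff, ← cj_mul, ← cj_mul]
  exact hc _ (by rw [cj_mul]; exact h1 _ (mul_mem (inv_mem hm) hm'))

end Max

theorem Line.trans_left {V' P' : Subgroup G} (L : Line V P V' P') {v v' : G} (hv : v ∈ V) (h1 : v ≠ 1) (hv' : v' ∈ V)
    (h1' : v' ≠ 1) : ∃ h ∈ (P ⊔ P') ⊓ 𝒩(V), h * v * h⁻¹ = v' := by
  obtain ⟨h, hh, e⟩ := L.trans (mem_sup_left hv) h1 (mem_sup_left hv') h1'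
  exact ⟨h, ⟨hh, L.S.mem_norm hv h1 (e ▸ hv')⟩, e⟩

end CL.Timm
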