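/-
Abelian TI-subgroups that are not elementary abelian: lines, the statements of the steps and the assembly.
-/
import Cfsg.Agent.Timm.A0
import Cfsg.Agent.Even.CGT0

set_option autoImplicit false
set_option linter.unusedSectionVars false

open Cfsg Subgroup
open scoped commutatorElement

namespace CL.ATI

open CL.Even CL.Timm CL.Grp CL.WTI

universe u

section

variable {G : Type*} [Group G]

/-- `|B| = |Ω₁(B)|²` -/
def QR (B : Subgroup G) : Prop := Nat.card B = Nat.card (om B) * Nat.card (om B)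

/-- the properties of a line -/
structure LA (B P : Subgroup G) : Prop where
  cover : ∀ n ∈ ln B P, n ∈ om B ∨ ∃ x ∈ B, n ∈ om (cj x P)
  cl : Cl B (ln B P)
  adj : ∀ g ∈ 𝒞(B), g ∈ 𝒞(om P) → ∃ a ∈ om B, g * a ∈ 𝒞(P)
  tor : ∃ k ∈ B ⊔ P, k ∈ 𝒩(B) ∧ k ∈ 𝒩(P) ∧ (∀ v ∈ om B, k * v * k⁻¹ = v → v = 1) ∧
    ∀ v ∈ om P, k * v * k⁻¹ = v → v = 1
  four : ∀ N : Subgroup G, N ≤ B ⊔ om P → (∀ u ∈ N, u * u = 1) → B ≤ N ⊔ ln B P → Nat.card (om B) = 4

/-- two lines through `B` inside `U = B Ω₁(P)` -/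
structure L4 (B P S : Subgroup G) : Prop extends Eg B P where
  eg : Eg B S
  c4 : Nat.card (om B) = 4
  c16 : Nat.card B = 16
  le : om S ≤ B ⊔ om P
  nle : ¬ om S ≤ ln B P

/-- there are only two lines through `B` -/
def Two (B P S : Subgroup G) : Prop := ∀ S', Eg B S' → om S' ≤ ln B P ∨ om S' ≤ ln B S

/-- the final configuration -/
structure F4 (B P S : Subgroup G) : Prop extends L4 B P S where
  la : LA B P
  la' : LA B S
  two : Two B P S
  cU : 𝒞(B ⊔ om P) ≤ om B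
  cA : 𝒞(om B) ⊓ 𝒩(ln B P) ≤ B ⊔ om P

/-- the conclusion -/
def Fin4 (B : Subgroup G) : Prop := Nonempty (B ≃* Multiplicative (ZMod 4) × Multiplicative (ZMod 4)) ∧
  ∃ (F : Type) (_ : Field F) (_ : Fintype F), Fintype.card F = 4 ∧
    Nonempty (generalizedFittingSubgroup G ≃* Matrix.ProjectiveSpecialLinearGroup (Fin 3) F)

variable {B P S : Subgroup G} {a g n u v x y : G}

namespace Eg

variable (e : Eg B P)
include e

theorem mem_U : u ∈ B ⊔ om P ↔ ∃ x ∈ B, ∃ a ∈ om P, x * a = u := mem_sup_nl e.symm.om_le_norm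

theorem U_le_ob : B ⊔ om P ≤ ob B := sup_le e.toTB.le_ob e.le_ob

theorem ln_le_U : ln B P ≤ B ⊔ om P := sup_le_sup_right (ozc_le B) _

theorem U_le_norm : B ⊔ om P ≤ 𝒩(ln B P) := sup_le e.le_norm_ln (le_sup_right.trans le_normalizer)

theorem isP_U [Finite G] : IsPGroup 2 (B ⊔ om P : Subgroup G) :=
  isPGroup_sup' e.isP (elem_isP (ozc_elem P)) e.symm.om_le_norm

theorem card_U [Finite G] : Nat.card (B ⊔ om P : Subgroup G) = Nat.card B * Nat.card (om B) := by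
  have h := card_sup_mul_card_inf (H := om P) (K := B) e.symm.om_le_norm
  rwa [show om P ⊓ B = ⊥ from eq_bot_iff.2 fun _ hd => e.eq_one' hd.2 (ozc_le P hd.1), card_bot,
    mul_one, card_om e.pt, sup_comm, mul_comm] at h

/-- `U / Ω₁(B)` is abelian -/
theorem cel_U (hu : u ∈ B ⊔ om P) (hv : v ∈ B ⊔ om P) : ⁅u, v⁆ ∈ om B := by
  obtain ⟨x, hx, a, ha, rfl⟩ := e.mem_U.1 hu
  have h1 : ⁅a, v⁆ ∈ om B := by
    obtain ⟨y, hy, b, hb, rfl⟩ := e.mem_U.1 hv
    rw [cel_mul_right, cel_eq_one.2 (om_comm hb (ozc_le P ha)), mul_one, mul_inv_cancel, mul_one]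
    exact ob_cel' (e.le_ob ha) hy
  rw [cel_mul_left]
  exact mul_mem (conj_mem (norm_le_norm_ozc B (le_normalizer hx)) h1) (ob_cel (e.U_le_ob hv) hx)

end Eg

namespace L4

variable [Finite G] (l : L4 B P S)
include l

theorem card_U' : Nat.card (B ⊔ om P : Subgroup G) = 64 := by rw [l.card_U, l.c16, l.c4]

theorem card_ln' : Nat.card (ln B P) = 16 := by rw [l.card_ln, l.c4]

theorem U_eq : B ⊔ om S = B ⊔ om P :=
  eq_of_le_of_card_ge (sup_le le_sup_left l.le) (by rw [l.card_U, l.eg.card_U])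

theorem symm' : L4 B S P := ⟨l.eg, l.toEg, l.c4, l.c16, l.U_eq ▸ le_sup_right, fun h => l.nle (le_sup_right.trans
  (eq_of_le_of_card_ge (sup_le le_sup_left h) (by rw [l.card_ln, l.eg.card_ln])).ge)⟩

theorem conj' (g : G) : L4 (cj g B) (cj g P) (cj g S) :=
  ⟨l.toEg.conj g, l.eg.conj g, by rw [← cj_om, card_cj, l.c4], by rw [card_cj, l.c16],
    by rw [← cj_om, ← cj_om, ← cj_sup]; exact cj_mono g l.le, by rw [← cj_om, ← cj_ln, cj_le_cj]; exact l.nle⟩

/-- commuting elements of the two lines -/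
theorem nd (c : Cl B (ln B P)) (hn : n ∈ ln B P) (hu : u ∈ ln B S) (h : n * u = u * n) : n ∈ om B ∨ u ∈ om B := by
  obtain ⟨v, hv, a, ha, rfl⟩ := l.mem_ln.1 hn
  obtain ⟨w, hw, m, hm, rfl⟩ := l.eg.mem_ln.1 hu
  by_cases a1 : a = 1
  · exact .inl (by rwa [a1, mul_one])
  by_cases m1 : m = 1
  · exact .inr (by rwa [m1, mul_one])
  have h1 : a * m = m * a := by
    have e1 := comm_of_mem (l.cm hw) ha
    have e2 := comm_of_mem (l.eg.cm hv) hm
    have e3 := om_comm hv (ozc_le B hw)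
    refine mul_left_cancel (a := v * w) ?_
    calc v * w * (a * m) = v * a * (w * m) := by rw [mul_assoc, ← mul_assoc w, ← e1]; group
      _ = v * w * (m * a) := by rw [h, mul_assoc, ← mul_assoc m, e2, ← e3]; group
  refine (l.nle (c.max S l.eg.pt ?_)).elim
  rw [cent_sup]
  exact le_inf l.eg.symm.cm (l.eg.t'.cent_of_comm (l.eg.pt.symm.trans l.pt) (ozc_le S hm) m1 (ozc_le P ha) a1 h1.symm)

theorem inf_eq (c : Cl B (ln B P)) : ln B P ⊓ ln B S = om B := le_antisymm (fun n hn => by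
    obtain ⟨m, hm, m1⟩ := l.eg.t'.exists_om
    exact (l.nd c hn.1 (mem_sup_right hm) (comm_of_mem (elem_le_cent l.eg.elem_ln (mem_sup_right hm)) hn.2)).resolve_right
      fun h => m1 (l.eg.eq_one' (ozc_le B h) (ozc_le S hm))) (le_inf le_sup_left le_sup_left)

theorem sup_eq (c : Cl B (ln B P)) : ln B P ⊔ ln B S = B ⊔ om P := by
  have h1 : ln B S ≤ B ⊔ om P := sup_le ((ozc_le B).trans le_sup_left) l.le
  have h := card_sup_mul_card_inf (H := ln B S) (K := ln B P) (h1.trans l.U_le_norm)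
  rw [inf_comm, l.inf_eq c, sup_comm, l.card_ln', l.symm'.card_ln', l.c4] at h
  exact eq_of_le_of_card_ge (sup_le l.ln_le_U h1) (by rw [l.card_U']; omega)

theorem twoA (c : Cl B (ln B P)) : TwoA 4 (B ⊔ om P) (ln B P) (ln B S) where
  ea := l.elem_ln
  ea' := l.eg.elem_ln
  sup := l.sup_eq c
  comm := by
    rw [l.inf_eq c]
    exact commutator_le.2 fun _ h1 _ h2 => l.cel_U (l.ln_le_U h1) (l.U_eq ▸ l.eg.ln_le_U h2)
  nd _ h1 _ h2 h := (l.nd c h1 h2 h).imp mem_sup_left mem_sup_left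
  card := by rw [l.inf_eq c, l.card_ln', l.c4]
  card' := by rw [l.inf_eq c, l.symm'.card_ln', l.c4]
  two := by omega

end L4

end

/-- (TYPE) the pairs of points -/
def TypeThm : Prop := ∀ {G : Type u} [Group G] [Finite G] {B : Subgroup G}, TB B →
  (∀ P, Pt B P → P ≠ B → ax B P = ⊥) ∨ T1 B

/-- (NOEDGE) there is an edge -/
def NoEdgeThm : Prop := ∀ {G : Type u} [Group G] [Finite G] {B : Subgroup G}, TB B → IsCharP 2 𝒩(B) →
  pCore 2 G = ⊥ → (∀ P, Pt B P → P ≠ B → ax B P = ⊥) → False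

/-- (ACT) elements of `ob B` act on a clique like elements of `B` -/
def ActThm : Prop := ∀ {G : Type u} [Group G] [Finite G] {B E : Subgroup G} {g : G}, Cl B E → g ∈ ob B →
  g ∈ 𝒩(E) → g * g ∈ om B → ∃ x ∈ B, g * x ∈ 𝒞(E)

/-- (PART) a point outside a clique normalizes it -/
def PartThm : Prop := ∀ {G : Type u} [Group G] [Finite G] {B E : Subgroup G}, Cl B E → MC B → ¬ E ≤ om B →
  QR B ∧ ∃ S, Eg B S ∧ om S ≤ 𝒩(E) ∧ ¬ om S ≤ E

/-- (LINE) lines -/
def LineThm : Prop := ∀ {G : Type u} [Group G] [Finite G] {B P : Subgroup G}, Eg B P → QR B → LA B P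

/-- (L4) the second line -/
def L4Thm : Prop := ∀ {G : Type u} [Group G] [Finite G] {B P S : Subgroup G}, Eg B P → Eg B S → QR B → LA B P →
  LA B S → om S ≤ 𝒩(ln B P) → ¬ om S ≤ ln B P → L4 B P S

/-- (TWO) two lines through a point -/
def TwoThm : Prop := ∀ {G : Type u} [Group G] [Finite G] {B P S : Subgroup G}, IsCharP 2 𝒩(B) →
  (∀ P', Eg B P' → LA B P' ∧ ∃ S', L4 B P' S') → L4 B P S → Two B P S

/-- (RONE) the centralizers -/
def ROneThm : Prop := ∀ {G : Type u} [Group G] [Finite G] {B P S : Subgroup G}, MC B → L4 B P S → LA B P →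
  LA B S → Two B P S → F4 B P S

/-- (SYL) the simple group and its Sylow subgroup -/
def SylThm : Prop := ∀ {G : Type u} [Group G] [Finite G] {B P S : Subgroup G}, F4 B P S → IsCharP 2 𝒩(B) →
  IsSimpleGroup (ncl ⊤ (om B)) ∧ IsSylowIn 2 (B ⊔ om P) (ncl ⊤ (om B))

/-- (FIN) the identification -/
def FinThm : Prop := ∀ {G : Type u} [Group G] [Finite G] {B P S : Subgroup G}, F4 B P S → pCore 2 G = ⊥ →
  IsSimpleGroup (ncl ⊤ (om B)) → IsSylowIn 2 (B ⊔ om P) (ncl ⊤ (om B)) → Fin4 B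

/-- the theorem -/
def CoreThm : Prop := ∀ {G : Type u} [Group G] [Finite G] {B : Subgroup G}, TB B → MC B → pCore 2 G = ⊥ → Fin4 B

/-- assembly -/
theorem coreThm_of (ty : TypeThm.{u}) (ne : NoEdgeThm.{u}) (pa : PartThm.{u}) (li : LineThm.{u}) (l4 : L4Thm.{u})
    (tw : TwoThm.{u}) (ro : ROneThm.{u}) (sy : SylThm.{u}) (fi : FinThm.{u}) : CoreThm.{u} := by
  intro G _ _ B t mc hO
  have h0 : ¬ ∀ P, Pt B P → P ≠ B → ax B P = ⊥ := ne t mc.chr hO
  have t1 := (ty t).resolve_left h0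
  push Not at h0
  obtain ⟨P, hP, hne, h1⟩ := h0
  obtain ⟨b, hb, b1⟩ := (bot_or_exists_ne_one _).resolve_left h1
  have e := t1.eg_of_mem hP hne hb.1 b1 hb.2
  have nle : ∀ {P E : Subgroup G}, Eg B P → om P ≤ E → ¬ E ≤ om B := fun e h1 h2 =>
    e.ne (t.eq_of_om_le e.pt (h1.trans (h2.trans (ozc_le B))))
  obtain ⟨E, c, hE⟩ := e.exists_cl
  have qr := (pa c mc (nle e hE)).1
  have all : ∀ P', Eg B P' → LA B P' ∧ ∃ S', L4 B P' S' := fun P' e' => by
    have la := li e' qr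
    obtain ⟨-, S, e2, h2, h3⟩ := pa la.cl mc (nle e' le_sup_right)
    exact ⟨la, S, l4 e' e2 qr la (li e2 qr) h2 h3⟩
  obtain ⟨la, S, l⟩ := all P e
  have f := ro mc l la (all S l.eg).1 (tw mc.chr all l)
  exact fi f hO (sy f mc.chr).1 (sy f mc.chr).2

end CL.ATI
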