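/-
Abelian TI-subgroups that are not elementary abelian: edges in the presence of commuting points.
-/
import Cfsg.Agent.Timm.A1

set_option autoImplicit false
set_option linter.unusedSectionVars false

open Cfsg Subgroup
open scoped commutatorElement

namespace CL.ATI

open CL.Even CL.Timm CL.Grp CL.WTI

universe u

section

variable {G : Type*} [Group G]

/-- an edge between two points that do not commute -/
structure Eh (B P : Subgroup G) : Prop extends TB B where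
  sq : ∀ x ∈ B, x * x ∈ om B
  pt : Pt B P
  ne : P ≠ B
  ax1 : ∀ x ∈ B, x ∈ 𝒩(P) → x ∈ om B
  ax2 : ∀ y ∈ P, y ∈ 𝒩(B) → y ∈ om P
  cm : om B ≤ 𝒞(om P)
  c1 : ∀ x ∈ B, ∀ a ∈ om P, ⁅x, a⁆ ∈ om B
  c2 : ∀ y ∈ P, ∀ a ∈ om B, ⁅y, a⁆ ∈ om P

/-- `Ω₁(S)` acts on the line of `O, R` like `O` -/
structure Ac (O R S : Subgroup G) : Prop where
  e2 : Eh O R
  e3 : Eh O S
  act : ∀ b ∈ om S, b ≠ 1 → ∃ r ∈ O, r ∉ om O ∧ b * r ∈ 𝒞(ln O R)

/-- the involutions of `O Ω₁(R)` outside the line, together with `Ω₁(O)` -/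
abbrev ll (O R S : Subgroup G) : Subgroup G := (O ⊔ om R) ⊓ 𝒞(om S)

/-- consequences of `Ac` -/
structure Ad (O R S : Subgroup G) : Prop extends Ac O R S where
  qr : QR O
  onto : ∀ r ∈ O, ∃ b ∈ om S, b * r ∈ 𝒞(ln O R)
  dec : ∀ b ∈ om S, ∃ l ∈ ll O R S, b * l ∈ 𝒞(O ⊔ R)
  elem : IsElementaryAbelian 2 (om S ⊔ ll O R S : Subgroup G)
  lc : ll O R S ⊓ 𝒞(O) ≤ om O
  nrm : (O ⊔ R) ⊓ 𝒩(O) ≤ 𝒩(ll O R S) ⊓ 𝒩(om S ⊔ ll O R S)

variable {B E H P P' R S X : Subgroup G} {a b d g h k n v x y : G}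

theorem sq_cj (h : ∀ x ∈ B, x * x ∈ om B) (g : G) : ∀ x ∈ cj g B, x * x ∈ om (cj g B) := fun x hx => by
  rw [← cj_om, mem_cj]
  simpa [mul_assoc] using h _ (mem_cj.1 hx)

theorem QR.of_pt (q : QR B) (hP : Pt B P) : QR P := by
  obtain ⟨g, rfl⟩ := hP
  rwa [QR, ← cj_om, card_cj, card_cj]

theorem cel_cj (h : ∀ x ∈ B, ∀ a ∈ om P, ⁅x, a⁆ ∈ om B) (g : G) :
    ∀ x ∈ cj g B, ∀ a ∈ om (cj g P), ⁅x, a⁆ ∈ om (cj g B) := fun x hx a ha => by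
  rw [← cj_om] at ha ⊢
  have := h _ (mem_cj.1 hx) _ (mem_cj.1 ha)
  exact mem_cj.2 (by rwa [show ⁅g⁻¹ * x * g, g⁻¹ * a * g⁆ = g⁻¹ * ⁅x, a⁆ * g by simp only [cel_def]; group] at this)

theorem ax_cj (h : ∀ x ∈ B, x ∈ 𝒩(P) → x ∈ om B) (g : G) : ∀ x ∈ cj g B, x ∈ 𝒩(cj g P) → x ∈ om (cj g B) :=
  fun x hx hn => by
  rw [← cj_norm] at hn
  rw [← cj_om]
  exact mem_cj.2 (h _ (mem_cj.1 hx) (mem_cj.1 hn))

theorem Eg.toEh (e : Eg B P) : Eh B P :=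
  ⟨e.toTB, e.sq, e.pt, e.ne, fun _ => e.mem_om, fun _ => e.symm.mem_om, e.cm, fun _ hx _ => e.cel_mem hx,
    fun _ hx _ => e.symm.cel_mem hx⟩

namespace Eh

variable (e : Eh B P)
include e

theorem t' : TB P := e.toTB.of_pt e.pt

theorem symm : Eh P B :=
  ⟨e.t', by obtain ⟨g, rfl⟩ := e.pt; exact sq_cj e.sq g, e.pt.symm, e.ne.symm, e.ax2, e.ax1,
    le_centralizer_iff.1 e.cm, e.c2, e.c1⟩

theorem conj (g : G) : Eh (cj g B) (cj g P) :=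
  ⟨e.toTB.conj g, sq_cj e.sq g, e.pt.conj g, fun h => e.ne (cj_inj.1 h), ax_cj e.ax1 g, ax_cj e.ax2 g,
    by rw [← cj_om, ← cj_om, ← cj_cent]; exact cj_mono g e.cm, cel_cj e.c1 g, cel_cj e.c2 g⟩

theorem cj_right (hg : g ∈ 𝒩(B)) : Eh B (cj g P) := by simpa only [cj_eq hg] using e.conj g

theorem om_le_norm : om B ≤ 𝒩(P) := e.cm.trans e.t'.cent_om_le

theorem mem_om (hx : x ∈ B) (h : x ∈ 𝒩(P)) : x ∈ om B := e.ax1 x hx h

theorem eq_one' (h1 : d ∈ B) (h2 : d ∈ P) : d = 1 := e.eq_one e.pt e.ne h1 h2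

theorem le_ob : om P ≤ ob B := fun a ha =>
  WTI.mem_op.2 ⟨e.symm.om_le_norm ha, e.symm.cm ha, fun x hx => e.c1 x hx a ha⟩

theorem cel_mem (hx : x ∈ B) (ha : a ∈ om P) : ⁅x, a⁆ ∈ om B := ob_cel (e.le_ob ha) hx

theorem eq_one_of_cel (hx : x ∈ B) (hx' : x ∉ om B) (ha : a ∈ P) (h : ⁅x, a⁆ = 1) : a = 1 :=
  by_contra fun a1 => hx' (e.mem_om hx (e.norm_of_comm e.pt ha a1 (cel_eq_one.1 h)))

theorem mem_om_of_cel (hx : x ∈ B) (ha : a ∈ P) (a1 : a ≠ 1) (h : ⁅x, a⁆ = 1) : x ∈ om B :=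
  by_contra fun hx' => a1 (e.eq_one_of_cel hx hx' ha h)

theorem cel_inj (hx : x ∈ B) (hx' : x ∉ om B) (ha : a ∈ om P) (hb : b ∈ om P) (h : ⁅x, a⁆ = ⁅x, b⁆) : a = b := by
  have := e.eq_one_of_cel hx hx' (ozc_le P (mul_mem ha hb))
    (by rw [op_cel_mul (e.le_ob ha) (e.le_ob hb) hx, h, om_sq (e.cel_mem hx hb)])
  rw [← mul_one a, ← om_sq hb, ← mul_assoc, this, one_mul]

theorem exists_cel [Finite G] (hx : x ∈ B) (hx' : x ∉ om B) (hv : v ∈ om B) : ∃ a ∈ om P, ⁅x, a⁆ = v :=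
  surj_of_inj (card_om e.pt).ge (fun a => ⁅x, a⁆) (fun _ ha => e.cel_mem hx ha)
    (fun _ ha _ hb => e.cel_inj hx hx' ha hb) hv

theorem elem_ln : IsElementaryAbelian 2 (ln B P) := elem_sup (ozc_elem _) (ozc_elem _) e.cm

theorem mem_ln : x ∈ ln B P ↔ ∃ v ∈ om B, ∃ a ∈ om P, v * a = x := mem_sup_nr (e.cm.trans (cent_le_norm _))

theorem ln_le_ob : ln B P ≤ ob B := sup_le ((ozc_le B).trans e.toTB.le_ob) e.le_ob

theorem le_norm_ln : B ≤ 𝒩(ln B P) := le_norm_of_commutator_le (commutator_le.2 fun _ hy _ hx =>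
  mem_sup_left (ob_cel' (e.ln_le_ob hy) hx))

theorem sup_le_norm_ln : B ⊔ P ≤ 𝒩(ln B P) := sup_le e.le_norm_ln (ln_comm B P ▸ e.symm.le_norm_ln)

theorem mem_om_of_ln (hx : x ∈ B) (h : x ∈ ln B P) : x ∈ om B :=
  e.toTB.mem_om.2 ⟨hx, by rw [← pow_two]; exact e.elem_ln.2 x h⟩

theorem card_ln [Finite G] : Nat.card (ln B P) = Nat.card (om B) * Nat.card (om B) := by
  have h := card_sup_mul_card_inf (H := om B) (K := om P) (e.cm.trans (cent_le_norm _))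
  rwa [show om B ⊓ om P = ⊥ from eq_bot_iff.2 fun _ hd => e.eq_one' (ozc_le B hd.1) (ozc_le P hd.2), card_bot,
    mul_one, card_om e.pt] at h

theorem card_le [Finite G] : Nat.card B ≤ Nat.card (om B) * Nat.card (om B) := by
  obtain ⟨a, ha, a1⟩ := e.t'.exists_om
  have := card_le_mul_of_fib (A := B) (K := om B) (fun x => ⁅x, a⁆) (fun _ hx => e.cel_mem hx ha) fun x hx y hy h =>
    e.mem_om_of_cel (mul_mem (inv_mem hx) hy) (ozc_le P ha) a1 (mul_left_cancel (a := ⁅x, a⁆) (by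
      rw [← ob_cel_mul' (e.le_ob ha) hx (mul_mem (inv_mem hx) hy), mul_inv_cancel_left, mul_one]; exact h.symm))
  rwa [inf_eq_right.2 (ozc_le B)] at this

/-- an element of `ob B` fixing `P` centralizes `Ω₁(P)` -/
theorem ob_cent (h1 : g ∈ ob B) (h2 : g ∈ 𝒩(P)) : g ∈ 𝒞(om P) := mem_cent_iff.2 fun a ha => by
  obtain ⟨x, hx, hx'⟩ := e.exists_not_om
  have ha' : g * a * g⁻¹ ∈ om P := conj_mem (norm_le_norm_ozc P h2) ha
  have e1 : g * x * g⁻¹ = ⁅x, g⁆⁻¹ * x := by simp only [cel_def]; group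
  have := CL.Timm.cel_conj g x a
  rw [conj_eq_of_mem (op_le_cent h1) (e.cel_mem hx ha), e1, ob_cel_mul' (e.le_ob ha') (inv_mem (ozc_le B (ob_cel h1 hx))) hx,
    ob_cel_om (e.le_ob ha') (inv_mem (ob_cel h1 hx)), one_mul] at this
  exact (mul_inv_eq_iff_eq_mul.1 (e.cel_inj hx hx' ha ha' this).symm).symm

theorem cent_ln_of_ob (h1 : g ∈ ob B) (h2 : g ∈ 𝒩(P)) : g ∈ 𝒞(ln B P) := by
  rw [cent_sup]; exact ⟨op_le_cent h1, e.ob_cent h1 h2⟩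

/-- `C(Ω₁(B) Ω₁(P))` acts trivially on `B / Ω₁(B)` -/
theorem cent_le_ob : 𝒞(ln B P) ≤ ob B := fun g hg => by
  have h1 : g ∈ 𝒞(om B) := cent_mono le_sup_left hg
  refine WTI.mem_op.2 ⟨e.cent_om_le h1, h1, fun x hx => ?_⟩
  obtain ⟨a, ha, a1⟩ := e.t'.exists_om
  have hx' := conj_mem (e.cent_om_le h1) (inv_mem hx)
  have := CL.Timm.cel_conj g x⁻¹ a
  rw [conj_eq_of_mem h1 (e.cel_mem (inv_mem hx) ha), conj_eq_of_mem hg (mem_sup_right ha)] at this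
  refine e.mem_om_of_cel (cel_mem_left hx (e.cent_om_le h1)) (ozc_le P ha) a1 ?_
  rw [show ⁅x, g⁆ = x * (g * x⁻¹ * g⁻¹) by simp only [cel_def]; group, ob_cel_mul' (e.le_ob ha) hx hx', ← this,
    ← ob_cel_mul' (e.le_ob ha) hx (inv_mem hx), mul_inv_cancel, commutatorElement_one_left]

theorem cent_le_ob' : 𝒞(ln B P) ≤ ob P := ln_comm B P ▸ e.symm.cent_le_ob

theorem sq_eq_one (h1 : g ∈ 𝒞(ln B P)) (h2 : g * g ∈ B) : g * g = 1 := by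
  obtain ⟨x, hx, hx'⟩ := e.t'.exists_not_om
  exact e.symm.eq_one_of_cel hx hx' h2 (cel_eq_one.2 (comm_of_mem (ob_sq (e.cent_le_ob' h1)) hx))

theorem not_cent : ¬ P ≤ 𝒞(B) := fun h =>
  e.t'.nel fun y hy => e.ax2 y hy (cent_le_norm _ (h hy))

theorem mem_U : v ∈ B ⊔ om P ↔ ∃ x ∈ B, ∃ a ∈ om P, x * a = v := mem_sup_nl e.symm.om_le_norm

theorem U_le_ob : B ⊔ om P ≤ ob B := sup_le e.toTB.le_ob e.le_ob

/-- `C_N(x) = Ω₁(B)` -/
theorem mem_om_of_comm (hx : x ∈ B) (hx' : x ∉ om B) (hn : n ∈ ln B P) (h : ⁅x, n⁆ = 1) : n ∈ om B := by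
  obtain ⟨v, hv, a, ha, rfl⟩ := e.mem_ln.1 hn
  rw [cel_mul_right, cel_eq_one.2 (om_comm hv hx), one_mul, conj_eq_of_mem (ozc_le_cent B hv) (ozc_le B (e.cel_mem hx ha))] at h
  rwa [e.eq_one_of_cel hx hx' (ozc_le P ha) h, mul_one]

/-- a point of the line fixed by an element of `B - Ω₁(B)` is `B` -/
theorem eq_of_norm (hS : Pt B S) (h : om S ≤ ln B P) (hx : x ∈ B) (hx' : x ∉ om B) (hn : x ∈ 𝒩(S)) : S = B :=
  by_contra fun hne => hne (e.eq_of_om_le hS fun _ ha => ozc_le B (e.mem_om_of_comm hx hx' (h ha)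
    (e.eq_one hS hne (ozc_le B (ob_cel (e.ln_le_ob (h ha)) hx)) (cel_mem_right hn (ozc_le S ha)))))

theorem ln_le_norm : ln B P ≤ 𝒩(B) := e.ln_le_ob.trans op_le_norm

theorem om_cj_le (hg : g ∈ 𝒩(ln B P)) : om (cj g B) ≤ ln B P := cj_om g B ▸ cj_le_of_le le_sup_left hg

/-- products of odd order modulo the line -/
theorem odd [Finite G] (hg : g ∈ 𝒩(ln B P)) (hne : cj g B ≠ B) (hx : x ∈ B) (hx' : x ∉ om B) (hy : y ∈ cj g B)
    (hy' : y ∉ om (cj g B)) : ∃ j, Odd j ∧ (x * y) ^ j ∈ ln B P :=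
  e.odd_mod e.le_norm_ln le_rfl e.ln_le_norm (fun x hx => mem_sup_left (e.sq x hx))
    (fun k hk h z hz => mem_sup_left (by_contra fun z' => h (e.eq_of_norm (Pt.of_cj k B) (e.om_cj_le hk) hz.1 z' hz.2)))
    hg hne hx (fun h => hx' (e.mem_om_of_ln hx h)) hy
    fun h => hy' ((e.toTB.conj g).mem_om.2 ⟨hy, by rw [← pow_two]; exact e.elem_ln.2 y h⟩)

variable [Finite G] (q : QR B)
include q

theorem surj (ha : a ∈ om P) (a1 : a ≠ 1) (hv : v ∈ om B) : ∃ x ∈ B, ⁅x, a⁆ = v := by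
  let f : B →* om B := MonoidHom.mk' (fun x => ⟨⁅x.1, a⁆, e.cel_mem x.2 ha⟩) fun x y =>
    Subtype.ext (ob_cel_mul' (e.le_ob ha) x.2 y.2)
  have h1 : f.ker = (om B).subgroupOf B := by
    ext x
    exact ⟨fun h => e.mem_om_of_cel x.2 (ozc_le P ha) a1 (congrArg Subtype.val h),
      fun h => Subtype.ext (ob_cel_om (e.le_ob ha) h)⟩
  have h2 := f.ker.card_mul_index
  rw [index_ker, h1, card_subgroupOf_of_le (ozc_le B), q] at h2
  have h3 : f.range = ⊤ := eq_top_of_card_eq _ (Nat.eq_of_mul_eq_mul_left Nat.card_pos h2)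
  obtain ⟨x, hx⟩ := h3.ge (mem_top ⟨v, hv⟩)
  exact ⟨x, x.2, congrArg Subtype.val hx⟩

theorem cover (hn : n ∈ ln B P) : n ∈ om B ∨ ∃ x ∈ B, n ∈ om (cj x P) := by
  obtain ⟨v, hv, a, ha, rfl⟩ := e.mem_ln.1 hn
  by_cases a1 : a = 1
  · exact .inl (by rwa [a1, mul_one])
  obtain ⟨x, hx, rfl⟩ := e.surj q ha a1 hv
  exact .inr ⟨x, hx, by rw [← cj_om, cel_def, inv_mul_cancel_right]; exact conj_mem_cj x ha⟩

/-- the points of a line -/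
theorem eq_or (hS : Pt B S) (h : om S ≤ ln B P) : S = B ∨ ∃ x ∈ B, cj x P = S := by
  obtain ⟨a, ha, a1⟩ := (e.of_pt hS).exists_om
  exact (e.cover q (h ha)).imp (fun h1 => e.eq_of_mem_pt hS (Pt.refl B) (ozc_le S ha) (ozc_le B h1) a1)
    fun ⟨x, hx, h1⟩ => ⟨x, hx, e.eq_of_mem_pt (e.pt.cj_right x) hS (ozc_le _ h1) (ozc_le S ha) a1⟩

theorem adj (h1 : g ∈ 𝒞(B)) (h2 : g ∈ 𝒞(om P)) : ∃ a ∈ om B, g * a ∈ 𝒞(P) := by
  have h3 : g ∈ ob P := e.cent_le_ob' (by rw [cent_sup]; exact ⟨cent_mono (ozc_le B) h1, h2⟩)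
  obtain ⟨y, hy, hy'⟩ := e.t'.exists_not_om
  obtain ⟨a, ha, h4⟩ := e.symm.exists_cel hy hy' (ob_cel h3 hy)
  have h5 : y * (g * a) = g * a * y := cel_eq_one.1 (by
    rw [op_cel_mul h3 (e.symm.le_ob ha) hy, h4, om_sq (ob_cel h3 hy)])
  have h6 : g * a ∈ 𝒞(B) := mul_mem h1 (ozc_le_cent B ha)
  have h7 : g * a ∈ 𝒞(cj y B) := by
    rw [← cj_cent, mem_cj]
    rwa [mul_assoc, ← h5, inv_mul_cancel_left]
  refine ⟨a, ha, ?_⟩
  rcases e.eq_or q (Pt.of_cj y B) (e.om_cj_le (e.sup_le_norm_ln (mem_sup_right hy))) with h8 | ⟨x, hx, h8⟩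
  · exact (hy' (e.ax2 y hy (cj_eq_iff_mem.1 h8))).elim
  · rw [← h8, ← cj_cent, mem_cj] at h7
    rwa [mul_assoc, ← comm_of_mem h6 hx, inv_mul_cancel_left] at h7

/-- `N_L(B)` is transitive on the involutions of `B` -/
theorem trans (ha : a ∈ om B) (a1 : a ≠ 1) (hb : b ∈ om B) (b1 : b ≠ 1) :
    ∃ k ∈ (B ⊔ P) ⊓ 𝒩(B), k * a * k⁻¹ = b := by
  obtain ⟨w, hw, w1⟩ := e.t'.exists_om
  have key : ∀ a ∈ om B, a ≠ 1 → ∃ k ∈ B ⊔ P, k * a * k⁻¹ = w := fun a ha a1 => by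
    obtain ⟨y, hy, h1⟩ := e.symm.surj (q.of_pt e.pt) ha a1 hw
    obtain ⟨x, hx, h2⟩ := e.surj q hw w1 ha
    refine ⟨x⁻¹ * y, mul_mem (inv_mem (mem_sup_left hx)) (mem_sup_right hy), ?_⟩
    have h3 : y * a * y⁻¹ = x * w * x⁻¹ := by
      rw [show y * a * y⁻¹ = ⁅y, a⁆ * a by rw [cel_def]; group, show x * w * x⁻¹ = ⁅x, w⁆ * w by rw [cel_def]; group,
        h1, h2, comm_of_mem (e.cm ha) hw]
    rw [show x⁻¹ * y * a * (x⁻¹ * y)⁻¹ = x⁻¹ * (y * a * y⁻¹) * x by group, h3]; group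
  obtain ⟨k, hk, h1⟩ := key a ha a1
  obtain ⟨l, hl, h2⟩ := key b hb b1
  have h3 : l⁻¹ * k * a * (l⁻¹ * k)⁻¹ = b := by
    rw [show l⁻¹ * k * a * (l⁻¹ * k)⁻¹ = l⁻¹ * (k * a * k⁻¹) * l by group, h1, ← h2]; group
  exact ⟨l⁻¹ * k, ⟨(B ⊔ P).mul_mem ((B ⊔ P).inv_mem hl) hk, e.mem_norm (ozc_le B ha) a1 (h3 ▸ ozc_le B hb)⟩, h3⟩

end Eh

end

/-- (TRI) the pairs of points -/
def TriThm : Prop := ∀ {G : Type u} [Group G] [Finite G] {B P : Subgroup G}, TB B → Pt B P → P ≠ B →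
  ax B P = ⊥ ∨ P ≤ 𝒞(B) ∨ Eh B P

section

variable {G : Type u} [Group G] [Finite G] {B P R S : Subgroup G} {a b d : G} (tri : TriThm.{u}) (t : TB B)
include tri t

namespace TB

theorem cent_om (hP : Pt B P) (hb : b ∈ B) (b1 : b ≠ 1) (h : b ∈ 𝒩(P)) : om B ≤ 𝒞(om P) := by
  by_cases hne : P = B
  · exact hne ▸ elem_le_cent (ozc_elem _)
  rcases tri t hP hne with e | e | e
  · exact (b1 (mem_bot.1 (e.le ⟨hb, h⟩))).elim
  · exact le_centralizer_iff.1 ((ozc_le P).trans (e.trans (cent_mono (ozc_le B))))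
  · exact e.cm

theorem cent_om' (hP : Pt B P) (hb : b ∈ B) (b1 : b ≠ 1) (hd : d ∈ P) (d1 : d ≠ 1) (e : b * d = d * b) :
    om B ≤ 𝒞(om P) := t.cent_om tri hP hb b1 (t.norm_of_comm hP hd d1 e)

/-- a point with a non-trivial element centralizing `B` centralizes `B` -/
theorem le_cent (hP : Pt B P) (hd : d ∈ P) (d1 : d ≠ 1) (h : d ∈ 𝒞(B)) : P ≤ 𝒞(B) := by
  by_cases hne : P = B
  · exact hne ▸ t.ab
  have h1 : B ≤ 𝒩(P) := fun b hb => t.norm_of_comm hP hd d1 (comm_of_mem h hb)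
  rcases tri t hP hne with e | e | e
  · exact (t.nel fun b hb => by rw [mem_bot.1 (e.le ⟨hb, h1 hb⟩)]; exact one_mem _).elim
  · exact e
  · exact (t.nel fun b hb => e.ax1 b hb (h1 hb)).elim

theorem eh (hP : Pt B P) (h : om B ≤ 𝒞(om P)) (hn : ¬ P ≤ 𝒞(B)) : Eh B P := by
  rcases tri t hP (fun e => hn (e ▸ t.ab)) with e | e | e
  · obtain ⟨a, ha, a1⟩ := t.exists_om
    exact (a1 (mem_bot.1 (e.le ⟨ozc_le B ha, (t.of_pt hP).cent_om_le (h ha)⟩))).elim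
  · exact (hn e).elim
  · exact e

/-- if the conjugates of `R` under `Ω₁(B)` commute with `R` then `B` and `R` are adjacent -/
theorem swap (hR : Pt B R) (h : ∀ a ∈ om B, cj a R ≤ 𝒞(R)) : om B ≤ 𝒞(om R) := by
  by_contra hn
  have h0 : ∀ b ∈ B, b ∈ 𝒩(R) → b = 1 := fun b hb h => by_contra fun b1 => hn (t.cent_om tri hR hb b1 h)
  have r := t.of_pt hR
  obtain ⟨x, hx, hx'⟩ := r.exists_not_om
  obtain ⟨a, ha, a1⟩ := t.exists_om
  obtain ⟨b, hb, hb'⟩ : ∃ b ∈ om B, b ∉ zpowers a := SetLike.not_le_iff_exists.1 fun e => by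
    have h1 := card_le_of_le e
    have h2 : orderOf a ≤ 2 := orderOf_le_of_pow_eq_one two_pos (by rw [sq, om_sq ha])
    have := t.four
    rw [Nat.card_zpowers] at h1
    omega
  have b1 : b ≠ 1 := fun e => hb' (e ▸ one_mem _)
  have ab : a * b ≠ 1 := fun e => hb' (eq_inv_of_mul_eq_one_right e ▸ inv_mem (mem_zpowers a))
  let F : Subgroup G := ⨆ c : om B, cj c.1 R
  have hF : ∀ c ∈ om B, cj c R ≤ F := fun c hc => le_iSup (fun c : om B => cj c.1 R) ⟨c, hc⟩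
  have hF1 : F ≤ 𝒞(R) := iSup_le fun c => h c c.2
  have hF2 : ∀ c ∈ om B, cj c F ≤ F := fun c hc => cj_le_iff.2 (iSup_le fun d => le_cj_iff.2 (by
    rw [inv_inv, ← cj_mul]; exact hF _ (mul_mem hc d.2)))
  have hRF : R ≤ F := by simpa only [cj_one] using hF 1 (one_mem _)
  have c : ∀ c ∈ om B, c * x * c⁻¹ ∈ F := fun c hc => hF c hc (conj_mem_cj c hx)
  have key : ∀ a ∈ om B, a ≠ 1 → ∀ b ∈ om B, b * (x * (a * x * a⁻¹)) * b⁻¹ = x * (a * x * a⁻¹) := fun a ha a1 b hb => by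
    have h1 : x * (a * x * a⁻¹) ∈ F := mul_mem (hRF hx) (c a ha)
    have h2 : x * (a * x * a⁻¹) ∈ 𝒩(B) := t.norm_of_comm (Pt.refl B) (ozc_le B ha) a1 (by
      have e : a⁻¹ = a := inv_eq_of_mul_eq_one_right (om_sq ha)
      rw [comm_of_mem (hF1 (c a ha)) hx]
      calc a * x * a⁻¹ * x * a = a * (x * (a⁻¹ * x * a)) := by group
        _ = a * (a * x * a⁻¹ * x) := by rw [← comm_of_mem (hF1 (c a ha)) hx, e])
    have h3 := h0 _ (cel_mem_left (ozc_le B hb) h2) (cent_le_norm _ (hF1 (show ⁅b, x * (a * x * a⁻¹)⁆ ∈ F by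
      rw [cel_def]; exact mul_mem (hF2 b hb (conj_mem_cj b h1)) (inv_mem h1))))
    rw [cel_eq_one.1 h3, mul_inv_cancel_right]
  have k1 := key a ha a1 b hb
  have k2 := key b hb b1 a ha
  have e1 : a * b * x * (a * b)⁻¹ = (b * x * b⁻¹)⁻¹ * (x * (a * x * a⁻¹)) := by
    rw [← k1, om_comm hb (ozc_le B ha)]; group
  have e2 : a * b * x * (a * b)⁻¹ = (a * x * a⁻¹)⁻¹ * (x * (b * x * b⁻¹)) := by rw [← k2]; group
  refine ab (h0 _ (ozc_le B (mul_mem ha hb)) (r.norm_of_comm (Pt.refl R) (mul_mem hx hx)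
    (fun e => hx' (r.mem_om.2 ⟨hx, e⟩)) (mul_inv_eq_iff_eq_mul.1 ?_)))
  rw [← conj_mul]
  nth_rw 1 [e1]
  rw [e2]
  calc _ = (b * x * b⁻¹)⁻¹ * (x * x * (b * x * b⁻¹)) := by group
    _ = _ := by rw [comm_of_mem (hF1 (c b hb)) (mul_mem hx hx), inv_mul_cancel_left]

end TB

end

/-- points that commute with `B` are adjacent -/
def Clq {G : Type*} [Group G] (B : Subgroup G) : Prop :=
  ∀ P R, Pt B P → Pt B R → P ≤ 𝒞(B) → R ≤ 𝒞(B) → om P ≤ 𝒞(om R)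

/-- (CLIQ) -/
def CliqThm : Prop := ∀ {G : Type u} [Group G] [Finite G] {B : Subgroup G}, TB B → IsCharP 2 𝒩(B) → Clq B

/-- (CF) -/
def CfThm : Prop := ∀ {G : Type u} [Group G] [Finite G] {B S R : Subgroup G}, Clq B → Eh B S → Pt B R → R ≤ 𝒞(B) →
  ¬ om S ≤ 𝒞(om R) → ∃ O, O ≤ 𝒞(B) ∧ Ac O R S

/-- (AD) -/
def AdThm : Prop := ∀ {G : Type u} [Group G] [Finite G] {O R S : Subgroup G}, Ac O R S → Ad O R S

/-- (CFIN) -/
def CfinThm : Prop := ∀ {G : Type u} [Group G] [Finite G] {B O R S : Subgroup G}, Eh B S → O ≤ 𝒞(B) → R ≤ 𝒞(B) →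
  Ad O R S → ∃ P, Pt B P ∧ R ≤ 𝒞(P) ∧ S ≤ 𝒞(P)

/-- the group generated by the involutions of the points adjacent to `B` -/
def star {G : Type*} [Group G] (B : Subgroup G) : Subgroup G := ⨆ S : {S // Pt B S ∧ om S ≤ 𝒞(om B)}, om S.1

theorem cj_star {G : Type*} [Group G] (g : G) (B : Subgroup G) : cj g (star B) ≤ star (cj g B) :=
  cj_le_iff.2 (iSup_le fun S => le_cj_iff.2 (by
    rw [inv_inv, cj_om]
    exact le_iSup_of_le ⟨cj g S.1, S.2.1.conj g, by rw [← cj_om, ← cj_om, ← cj_cent]; exact cj_mono g S.2.2⟩ le_rfl))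

/-- different points do not commute -/
theorem noCom (tri : TriThm.{u}) (cq : CliqThm.{u}) (cf : CfThm.{u}) (ad : AdThm.{u}) (fi : CfinThm.{u})
    {G : Type u} [Group G] [Finite G] {B P : Subgroup G} (t : TB B) (mc : MC B) (hP : Pt B P) (h : P ≤ 𝒞(B)) :
    P = B := by
  have cl : ∀ {C}, Pt B C → Clq C := by
    rintro _ ⟨g, rfl⟩
    exact cq (t.conj g) (cj_norm g B ▸ mc.chr.cj g)
  have key : ∀ {C R}, Pt B C → Pt C R → R ≤ 𝒞(C) → star C ≤ star R := fun {C R} hC hR h => iSup_le fun ⟨S, hS, h1⟩ => by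
    refine le_iSup_of_le ⟨S, hR.symm.trans hS, by_contra fun h2 => ?_⟩ le_rfl
    have e := (t.of_pt hC).eh tri hS (le_centralizer_iff.1 h1) fun h3 => h2 (cl hC S R hS hR h3 h)
    obtain ⟨O, h3, a⟩ := cf (cl hC) e hR h h2
    obtain ⟨P, h4, h5, h6⟩ := fi e h3 h (ad a)
    exact h2 (cl (hC.trans h4) S R (h4.symm.trans hS) (h4.symm.trans hR) h6 h5)
  have e := le_antisymm (key hP hP.symm (le_centralizer_iff.1 h)) (key (Pt.refl B) hP h)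
  obtain ⟨g, rfl⟩ := hP
  obtain ⟨a, ha, a1⟩ := t.exists_om
  have h1 : om B ≤ om (star B) := fun a ha => mem_ozc.2
    ⟨(le_iSup_of_le ⟨B, Pt.refl B, elem_le_cent (ozc_elem _)⟩ le_rfl : om B ≤ star B) ha,
      le_centralizer_iff.1 (iSup_le fun S => S.2.2) ha, (mem_ozc.1 ha).2.2⟩
  refine cj_eq (mc.max (om (star B)) (elem_isP (ozc_elem _)) (fun e => a1 (mem_bot.1 (e ▸ h1 ha)))
    (fun m hm => norm_le_norm_ozc _ (mem_norm_of_cj_le ?_)) (norm_le_norm_ozc _ (mem_norm_of_cj_le ?_)))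
  · simpa only [cj_eq hm] using cj_star m B
  · exact (cj_star g B).trans e.le

/-- assembly -/
theorem coreThm_of' (tri : TriThm.{u}) (cq : CliqThm.{u}) (cf : CfThm.{u}) (ad : AdThm.{u}) (cn : CfinThm.{u})
    (ne : NoEdgeThm.{u}) (pa : PartThm.{u}) (li : LineThm.{u}) (l4 : L4Thm.{u})
    (tw : TwoThm.{u}) (ro : ROneThm.{u}) (sy : SylThm.{u}) (fi : FinThm.{u}) : CoreThm.{u} := by
  intro G _ _ B t mc hO
  have h0 : ¬ ∀ P, Pt B P → P ≠ B → ax B P = ⊥ := ne t mc.chr hO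
  have h2 : ∀ P, Pt B P → P ≠ B → ∀ b ∈ B, b ≠ 1 → b ∈ 𝒩(P) → Eh B P := fun P hP hne b hb b1 h =>
    t.eh tri hP (t.cent_om tri hP hb b1 h) fun e => hne (noCom tri cq cf ad cn t mc hP e)
  push Not at h0
  obtain ⟨P, hP, hne, h1⟩ := h0
  obtain ⟨b, hb, b1⟩ := (bot_or_exists_ne_one _).resolve_left h1
  have t1 : T1 B := ⟨t, (h2 P hP hne b hb.1 b1 hb.2).sq, fun P hP hne b hb b1 h =>
    have e := h2 P hP hne b hb b1 h; ⟨e.ax1 b hb h, e.cm, e.c1⟩⟩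
  have e := t1.eg_of_mem hP hne hb.1 b1 hb.2
  have nle : ∀ {P E : Subgroup G}, Eg B P → om P ≤ E → ¬ E ≤ om B := fun e h1 h2 =>
    e.ne (t.eq_of_om_le e.pt (h1.trans (h2.trans (ozc_le B))))
  obtain ⟨E, c, hE⟩ := e.exists_cl
  have qr := (pa c mc (nle e hE)).1
  have all : ∀ P', Eg B P' → LA B P' ∧ ∃ S', L4 B P' S' := fun P' e' => by
    have la := li e' qr
    obtain ⟨-, S, e2, h2, h3⟩ := pa la.cl mc (nle e' le_sup_right)
    exact ⟨la, S, l4 e' e2 qr la (li e2 qr) h2 h3⟩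
  obtain ⟨la, S, l⟩ := all P e
  have f := ro mc l la (all S l.eg).1 (tw mc.chr all l)
  exact fi f hO (sy f mc.chr).1 (sy f mc.chr).2

end CL.ATI
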