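/-
Abelian TI-subgroups that are not elementary abelian: the action on a clique.
-/
import Cfsg.Agent.Timm.A1

set_option autoImplicit false
set_option linter.unusedSectionVars false

open Cfsg Subgroup
open scoped commutatorElement

namespace CL.ATI

open CL.Even CL.Timm CL.Grp CL.WTI

universe u

/-- a dihedral group of twice odd rotation order -/
theorem act_dih {H : Type*} [Group H] {s γ : H} (hs : s * s = 1) (hγ : γ * γ = 1) {i : ℕ}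
    (h : (s * (γ * s * γ⁻¹)) ^ (2 * i + 1) = 1) : ∃ k : ℕ,
      Commute γ (((s * (γ * s * γ⁻¹)) ^ k)⁻¹ * s * (s * (γ * s * γ⁻¹)) ^ k) ∧
      Commute (γ * (((s * (γ * s * γ⁻¹)) ^ k)⁻¹ * s * (s * (γ * s * γ⁻¹)) ^ k)) s := by
  have i1 := inv_eq_of_mul_eq_one_right hs
  have i2 := inv_eq_of_mul_eq_one_right hγ
  have e0 : γ = s * (s * γ) := by rw [← mul_assoc, hs, one_mul]
  have c1 : SemiconjBy s (s * γ) (s * γ)⁻¹ := by rw [SemiconjBy, ← e0, mul_inv_rev, inv_mul_cancel_right, i2]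
  have c2 : SemiconjBy γ (s * γ) (s * γ)⁻¹ := by rw [SemiconjBy, mul_inv_rev, i1, i2, mul_assoc]
  rw [show s * (γ * s * γ⁻¹) = (s * γ) ^ 2 by rw [i2, sq]; simp only [mul_assoc]] at h ⊢
  generalize s * γ = r at h e0 c1 c2
  rw [← pow_mul] at h
  have i3 : (r ^ (2 * i + 1))⁻¹ = r ^ (2 * i + 1) := inv_eq_of_mul_eq_one_right (by rw [← pow_add, ← two_mul, h])
  have d1 : Commute s (r ^ (2 * i + 1)) := by have := c1.pow_right (2 * i + 1); rwa [inv_pow, i3] at this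
  have d2 : Commute γ (r ^ (2 * i + 1)) := by have := c2.pow_right (2 * i + 1); rwa [inv_pow, i3] at this
  have e : ((r ^ 2) ^ ((i + 1) * (i + 1)))⁻¹ * s * (r ^ 2) ^ ((i + 1) * (i + 1)) = γ * r ^ (2 * i + 1) := by
    rw [← pow_mul, ← inv_pow, ← (c1.pow_right _).eq, mul_assoc, ← pow_add, e0, mul_assoc, ← pow_succ',
      show 2 * ((i + 1) * (i + 1)) + 2 * ((i + 1) * (i + 1)) = 2 * (2 * i + 1) * (i + 1) + (2 * i + 1 + 1) by ring,
      pow_add, pow_mul, h, one_pow, one_mul]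
  refine ⟨(i + 1) * (i + 1), ?_⟩
  rw [e, ← mul_assoc, hγ, one_mul]
  exact ⟨(Commute.refl γ).mul_right d2, d1.symm⟩

variable {G : Type*} [Group G] {B E P : Subgroup G} {g h x : G}

theorem act_f0 (c : Cl B E) (hx : x ∈ B) (hx' : x ∉ om B) (e : ⁅h, x⁆ ∈ E) : h ∈ 𝒩(B) := by
  refine cj_eq_iff_mem.1 ((c.toT1.conj h).eq_of_norm (Pt.of_cj h B).symm (conj_mem_cj h hx) (fun e => hx' ?_) ?_).symm
  · rw [← cj_om, mem_cj] at e
    simpa [mul_assoc] using e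
  · have := mul_mem (op_le_norm (c.le_ob e)) (le_normalizer hx)
    rwa [cel_def, inv_mul_cancel_right] at this

theorem act_all (c : Cl B E) (h1 : g ∈ ob B) (h2 : ∀ P, Pt B P → om P ≤ E → g ∈ 𝒩(P)) : g ∈ 𝒞(E) :=
  mem_cent_iff.2 fun _ hy => mem_centralizer_singleton_iff.1 (c.le_of (X := centralizer {g}) (fun P hP hE a ha => by
    refine mem_centralizer_singleton_iff.2 (comm_of_mem (H := om P) ?_ ha)
    by_cases e : P = B
    · exact e ▸ op_le_cent h1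
    · exact (c.eg hP hE e).ob_cent h1 (h2 P hP hE)) hy)

variable [Finite G]

theorem act_mv (c : Cl B E) (hg : g ∈ 𝒩(E)) (h2 : g * g ∈ E) (hn : g ∉ 𝒩(B)) :
    ∃ P, Pt B P ∧ om P ≤ E ∧ P ≠ B ∧ ∃ x ∈ P, x ∉ om P ∧ g ∈ 𝒩(P) ∧ g * x ∈ 𝒩(B) := by
  obtain ⟨x, hx, hx'⟩ := c.exists_not_om
  have no : ∀ k : G, k * x * k⁻¹ ∉ om (cj k B) := fun k e => hx' (by
    rw [← cj_om, mem_cj] at e
    simpa [mul_assoc] using e)
  obtain ⟨_, ⟨i, rfl⟩, hj⟩ := c.odd (Pt.of_cj g B) (c.cj_mem hg c.mem) (fun e => hn (cj_eq_iff_mem.1 e)) hx hx'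
    (conj_mem_cj g hx) (no g)
  have := normal_subgroupOf_of_le_normalizer (le_refl 𝒩(E))
  let π := QuotientGroup.mk' (E.subgroupOf 𝒩(E))
  have e : ∀ z : 𝒩(E), π z = 1 ↔ (z : G) ∈ E := fun z => QuotientGroup.eq_one_iff z
  have cm : ∀ a b : 𝒩(E), Commute (π a) (π b) → ⁅(a : G), (b : G)⁆ ∈ E := fun a b k =>
    (e ⁅a, b⁆).1 (by rw [map_commutatorElement]; exact cel_eq_one.2 k)
  let u : 𝒩(E) := ⟨x, c.le_norm hx⟩
  let γ : 𝒩(E) := ⟨g, hg⟩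
  obtain ⟨k, k1, k2⟩ := act_dih (s := π u) (γ := π γ) (i := i) (by rw [← map_mul]; exact (e _).2 (c.mem (c.sq x hx)))
    (by rw [← map_mul]; exact (e _).2 h2) (by simp only [← map_mul, ← map_inv, ← map_pow]; exact (e _).2 hj)
  simp only [← map_mul, ← map_inv, ← map_pow] at k1 k2
  generalize (u * (γ * u * γ⁻¹)) ^ k = w at k1 k2
  have c' := c.of_pt' (Pt.of_cj (w : G)⁻¹ B) (c.cj_mem (inv_mem w.2) c.mem)
  have m := conj_mem_cj (w : G)⁻¹ hx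
  have m' := no (w : G)⁻¹
  rw [inv_inv] at m m'
  have n1 := act_f0 c' m m' (cm _ _ k1)
  exact ⟨_, Pt.of_cj _ B, c'.mem, fun e => hn (e ▸ n1), _, m, m', n1, act_f0 c hx hx' (cm _ _ k2)⟩

theorem act_fix (c : Cl B E) (hP : Pt B P) (hE : om P ≤ E) (ne : P ≠ B) (h2 : g * g = 1) (hg : g ∈ 𝒩(E))
    (hc : g ∈ 𝒞(ln B P)) : g ∈ 𝒞(E) := by
  have o1 := (c.eg hP hE ne).cent_le_ob hc
  refine act_all c o1 fun P2 p2 l2 => by_contra fun n2 => ?_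
  obtain ⟨P4, p4, l4, n4, x, hx, hx', g4, g2⟩ := act_mv (c.of_pt' p2 l2) hg (h2 ▸ one_mem E) n2
  have c4 := c.of_pt' (p2.trans p4) l4
  have o4 : g ∈ ob P4 := by
    by_cases e : P4 = B
    · exact e ▸ o1
    · exact (c.eg (p2.trans p4) l4 e).cent_le_ob' ((c.eg (p2.trans p4) l4 e).cent_ln_of_ob o1 g4)
  obtain ⟨P6, e6, l6, g6⟩ : ∃ P6, Eg P4 P6 ∧ om P6 ≤ E ∧ g ∈ 𝒞(om P6) := by
    by_cases e : B = P4
    · exact ⟨P, c4.eg (e ▸ hP) hE (e ▸ ne), hE, cent_mono le_sup_right hc⟩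
    · exact ⟨B, c4.eg (p2.trans p4).symm c.mem e, c.mem, cent_mono le_sup_left hc⟩
  obtain ⟨a, ha, ea⟩ := e6.exists_cel hx hx' (ob_cel o4 hx)
  have k1 : Commute x (g * a) := cel_eq_one.1 (by rw [op_cel_mul o4 (e6.le_ob ha) hx, ea, om_sq (ob_cel o4 hx)])
  have k2 : Commute a g := comm_of_mem g6 ha
  have e2 := c4.eg p4.symm l2 n4.symm
  have k3 : g * a * x * (g * a * x) = x * x := by
    rw [← sq, k1.symm.mul_pow, k2.symm.mul_pow, sq, sq, sq, h2, om_sq ha, one_mul, one_mul]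
  have k4 := e2.sq_eq_one (e2.cent_ln_of_ob (mul_mem (mul_mem o4 (e6.le_ob ha)) (c4.toTB.le_ob hx)) (by
    rw [show g * a * x = g * x * (x⁻¹ * a * x) by group]
    exact mul_mem g2 (op_le_norm ((c.of_pt' p2 l2).le_ob (conj_mem' (c4.le_norm hx) (l6 ha)))))) (k3 ▸ mul_mem hx hx)
  exact hx' (c4.toTB.mem_om.2 ⟨hx, k3 ▸ k4⟩)

theorem actThm : ActThm.{u} := by
  intro G _ _ B E g c o1 hg h2
  by_cases h : ∀ P, Pt B P → om P ≤ E → g ∈ 𝒩(P)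
  · exact ⟨1, one_mem B, (mul_one g).symm ▸ act_all c o1 h⟩
  push Not at h
  obtain ⟨P2, p2, l2, n2⟩ := h
  obtain ⟨P4, p4, l4, n4, x, hx, hx', g4, g2⟩ := act_mv (c.of_pt' p2 l2) hg (c.mem h2) n2
  by_cases e : P4 = B
  · subst e
    have e2 := c.eg p2 l2 n4.symm
    have k := e2.cent_ln_of_ob (mul_mem o1 (c.toTB.le_ob hx)) g2
    refine ⟨x, hx, act_fix c p2 l2 n4.symm (e2.sq_eq_one k ?_) (mul_mem hg (c.le_norm hx)) k⟩
    rw [ob_mul_sq o1 hx]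
    exact mul_mem (mul_mem (ozc_le _ h2) (ozc_le _ (ob_cel o1 hx))) (mul_mem hx hx)
  · have e4 := c.eg (p2.trans p4) l4 e
    have k := e4.cent_ln_of_ob o1 g4
    exact ⟨1, one_mem B, (mul_one g).symm ▸ act_fix c (p2.trans p4) l4 e (e4.sq_eq_one k (ozc_le _ h2)) hg k⟩

end CL.ATI
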