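/-
Abelian TI-subgroups that are not elementary abelian: the action of `Ω₁(S)` on a line.
-/
import Cfsg.Agent.Timm.A2

set_option autoImplicit false
set_option linter.unusedSectionVars false

open Cfsg Subgroup
open scoped commutatorElement

namespace CL.ATI

open CL.Even CL.Timm CL.Grp CL.WTI

universe u

variable {G : Type*} [Group G] [Finite G] {O R S : Subgroup G} {a b b' l r r' w x : G}

namespace Ac

variable (c : Ac O R S)
include c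

theorem ad_om : om O ≤ 𝒞(ln O R) := le_sup_left.trans (elem_le_cent c.e2.elem_ln)

theorem ad_nc (hb : b ∈ om S) (hw : w ∈ om R) (w1 : w ≠ 1) (h : Commute w b) : b = 1 := by
  by_contra b1
  obtain ⟨r, hr, hr', h1⟩ := c.act b hb b1
  have := h.inv_right.mul_right (comm_of_mem h1 (mem_sup_right hw) : Commute w (b * r))
  rw [inv_mul_cancel_left] at this
  exact hr' (c.e2.mem_om_of_cel hr (ozc_le R hw) w1 (cel_eq_one.2 this.symm))

theorem ad_inj (hb : b ∈ om S) (hb' : b' ∈ om S) (hr : r ∈ O) (hr' : r' ∈ O) (h : b * r ∈ 𝒞(ln O R))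
    (h' : b' * r' ∈ 𝒞(ln O R)) (e : r⁻¹ * r' ∈ om O) : b = b' := by
  obtain ⟨w, hw, w1⟩ := c.e2.t'.exists_om
  have := mul_mem (mul_mem h' (inv_mem (c.ad_om e))) (inv_mem h)
  rw [show b' * r' * (r⁻¹ * r')⁻¹ * (b * r)⁻¹ = b' * b⁻¹ by group] at this
  exact (mul_inv_eq_one.1 (c.ad_nc (mul_mem hb' (inv_mem hb)) hw w1 (comm_of_mem this (mem_sup_right hw)))).symm

theorem ad_ex : ∃ φ : G → G, ∀ b ∈ om S, φ b ∈ O ∧ b * φ b ∈ 𝒞(ln O R) := by
  have : ∀ b, ∃ r, b ∈ om S → r ∈ O ∧ b * r ∈ 𝒞(ln O R) := fun b => by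
    by_cases hb : b ∈ om S
    · by_cases b1 : b = 1
      · exact ⟨1, fun _ => ⟨one_mem _, by rw [b1, mul_one]; exact one_mem _⟩⟩
      · obtain ⟨r, hr, -, h⟩ := c.act b hb b1
        exact ⟨r, fun _ => ⟨hr, h⟩⟩
    · exact ⟨1, fun h => (hb h).elim⟩
  choose φ h using this
  exact ⟨φ, h⟩

theorem ad_qr : QR O := by
  obtain ⟨φ, h⟩ := c.ad_ex
  have := card_mul_le_of_inj (A := om S) (ozc_le O) φ (fun b hb => (h b hb).1) fun b hb b' hb' =>
    c.ad_inj hb hb' (h b hb).1 (h b' hb').1 (h b hb).2 (h b' hb').2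
  rw [card_om c.e3.pt] at this
  exact c.e2.card_le.antisymm this

theorem ad_onto (hr : r ∈ O) : ∃ b ∈ om S, b * r ∈ 𝒞(ln O R) := by
  obtain ⟨φ, h⟩ := c.ad_ex
  obtain ⟨w, hw, w1⟩ := c.e2.t'.exists_om
  have k : ∀ x ∈ O, ∀ y ∈ O, ⁅x, w⁆ = ⁅y, w⁆ → x⁻¹ * y ∈ om O := fun x hx y hy e =>
    c.e2.mem_om_of_cel (mul_mem (inv_mem hx) hy) (ozc_le R hw) w1 (mul_left_cancel (a := ⁅x, w⁆) (by
      rw [← ob_cel_mul' (c.e2.le_ob hw) hx (mul_mem (inv_mem hx) hy), mul_inv_cancel_left, mul_one, e]))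
  obtain ⟨b, hb, e⟩ := surj_of_inj (A := om S) (card_om c.e3.pt).ge (fun b => ⁅φ b, w⁆)
    (fun b hb => c.e2.cel_mem (h b hb).1 hw) (fun b hb b' hb' e =>
      c.ad_inj hb hb' (h b hb).1 (h b' hb').1 (h b hb).2 (h b' hb').2 (k _ (h b hb).1 _ (h b' hb').1 e))
    (c.e2.cel_mem hr hw)
  have := mul_mem (h b hb).2 (c.ad_om (k _ (h b hb).1 _ hr e))
  exact ⟨b, hb, by rwa [mul_assoc, mul_inv_cancel_left] at this⟩

theorem ad_sq (hb : b ∈ om S) (hr : r ∈ O) (h : b * r ∈ 𝒞(ln O R)) : ⁅r, b⁆ * (r * r) = 1 := by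
  have e := ob_mul_sq (c.e3.le_ob hb) hr
  rw [om_sq hb, one_mul] at e
  exact e ▸ c.e2.sq_eq_one h (e ▸ mul_mem (ozc_le O (c.e3.cel_mem hr hb)) (mul_mem hr hr))

theorem ad_sym (hb : b ∈ om S) (hb' : b' ∈ om S) (hr : r ∈ O) (hr' : r' ∈ O) (h : b * r ∈ 𝒞(ln O R))
    (h' : b' * r' ∈ 𝒞(ln O R)) : ⁅r', b⁆ = ⁅r, b'⁆ := by
  have m := c.e3.cel_mem hr hb'
  have k := mul_mem (inv_mem (c.ad_om m)) (mul_mem h h')
  rw [show b * r * (b' * r') = b * ⁅r, b'⁆ * (b' * (r * r')) by simp only [cel_def]; group,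
    comm_of_mem (c.e3.cm m) hb, mul_assoc, inv_mul_cancel_left, ← mul_assoc] at k
  have e := c.ad_sq (mul_mem hb hb') (mul_mem hr hr') k
  have o := c.e3.le_ob hb
  have o' := c.e3.le_ob hb'
  have cm : ∀ x ∈ O, ∀ y ∈ O, x * y = y * x := fun _ h1 _ h2 => c.e2.toTB.comm h1 h2
  rw [ob_cel_mul' (mul_mem o o') hr hr', op_cel_mul o o' hr, op_cel_mul o o' hr', eq_inv_of_mul_eq_one_left (c.ad_sq hb hr h),
    eq_inv_of_mul_eq_one_left (c.ad_sq hb' hr' h'), ← sq (r * r'), (show Commute r r' from cm r hr r' hr').mul_pow, sq, sq,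
    cm _ (mul_mem hr hr) _ (mul_mem hr' hr'),
    show ∀ p q u v : G, p⁻¹ * u * (v * q⁻¹) * (q * p) = p⁻¹ * (u * v) * p⁻¹⁻¹ from fun _ _ _ _ => by group,
    conj_eq_one_iff] at e
  rw [eq_inv_of_mul_eq_one_right e, inv_eq_of_mul_eq_one_right (om_sq m)]

theorem ad_le : om O ≤ ll O R S := le_inf ((ozc_le O).trans le_sup_left) c.e3.cm

theorem ad_dec (hb : b ∈ om S) : ∃ l ∈ ll O R S, b * l ∈ 𝒞(O ⊔ R) := by
  by_cases b1 : b = 1
  · exact ⟨1, one_mem _, by rw [b1, mul_one]; exact one_mem _⟩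
  obtain ⟨r, hr, hr', h⟩ := c.act b hb b1
  have m := c.e3.cel_mem hr hb
  obtain ⟨w, hw, e⟩ := c.e2.exists_cel hr hr' m
  have ow := c.e2.le_ob hw
  have or := c.e2.toTB.le_ob hr
  have h1 : w * r ∈ 𝒞(om S) := c.e3.ob_cent (mul_mem ow or) (c.e3.norm_of_comm c.e3.pt (ozc_le S hb) b1 (by
    calc w * r * b = w * ⁅r, b⁆ * (b * r) := by simp only [cel_def]; group
      _ = ⁅r, b⁆ * (b * r * w) := by
        rw [comm_of_mem (c.e2.cm m) hw, mul_assoc, comm_of_mem h (mem_sup_right hw)]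
      _ = ⁅r, b⁆ * (b * ⁅r, w⁆) * (w * r) := by simp only [cel_def]; group
      _ = _ := by rw [e, comm_of_mem (c.e3.cm m) hb, ← mul_assoc, ← mul_assoc, om_sq m, one_mul, mul_assoc]))
  have h2 : b * r * w ∈ 𝒞(O) := mem_cent_iff.2 fun x hx => cel_eq_one.1 (by
    obtain ⟨b', hb', h'⟩ := c.ad_onto hx
    have m1 := c.e2.cel_mem hx hw
    have m2 := c.e3.cel_mem hr hb'
    have e1 : ⁅x, w⁆ = ⁅w, b'⁆ := by
      calc ⁅x, w⁆ = ⁅x, w⁆ * b' * b'⁻¹ := by group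
        _ = b' * x * w * (x⁻¹ * w⁻¹ * b'⁻¹) := by rw [← comm_of_mem (c.e3.cm m1) hb']; simp only [cel_def]; group
        _ = _ := by rw [← comm_of_mem h' (mem_sup_right hw)]; simp only [cel_def]; group
    have e2 : ⁅r, b'⁆ = ⁅b', w⁆ := by
      calc ⁅r, b'⁆ = ⁅r, b'⁆ * w * w⁻¹ := by group
        _ = w * r * b' * (r⁻¹ * b'⁻¹ * w⁻¹) := by rw [← comm_of_mem (c.e2.cm m2) hw]; simp only [cel_def]; group
        _ = _ := by rw [← comm_of_mem h1 hb']; simp only [cel_def]; group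
    rw [op_cel_mul (mul_mem (c.e3.le_ob hb) or) ow hx, op_cel_mul (c.e3.le_ob hb) or hx,
      cel_eq_one.2 (c.e2.toTB.comm hx hr), mul_one, c.ad_sym hb hb' hr hx h h', e1, e2, ← commutatorElement_inv, inv_mul_cancel])
  obtain ⟨u, hu, h3⟩ := c.e2.adj c.ad_qr h2 (mul_mem (cent_mono le_sup_right h) (elem_le_cent (ozc_elem R) hw))
  refine ⟨r * w * u, mul_mem ?_ (c.ad_le hu), ?_⟩
  · rw [show r * w = ⁅r, w⁆ * (w * r) by simp only [cel_def]; group]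
    exact mul_mem (c.ad_le (c.e2.cel_mem hr hw)) ⟨mul_mem (mem_sup_right hw) (mem_sup_left hr), h1⟩
  · rw [cent_sup, ← mul_assoc, ← mul_assoc]
    exact ⟨mul_mem h2 (ozc_le_cent O hu), h3⟩

theorem ad_sq' (hl : l ∈ ll O R S) : l * l = 1 := by
  refine c.e3.sq_eq_one (by rw [cent_sup]; exact ⟨op_le_cent (c.e2.U_le_ob hl.1), hl.2⟩) ?_
  obtain ⟨x, hx, a, ha, rfl⟩ := c.e2.mem_U.1 hl.1
  rw [show x * a * (x * a) = x * (a * x * a⁻¹) * (a * a) by group, om_sq ha, mul_one]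
  exact mul_mem hx (conj_mem (c.e2.symm.om_le_norm ha) hx)

theorem ad_invol (hl : l ∈ O ⊔ om R) (h2 : l * l = 1) (hn : l ∉ ln O R) : l ∈ ll O R S := by
  obtain ⟨r, hr, w, hw, rfl⟩ := c.e2.mem_U.1 hl
  have hr' : r ∉ om O := fun h => hn (mul_mem (mem_sup_left h) (mem_sup_right hw))
  obtain ⟨b, hb, h⟩ := c.ad_onto hr
  obtain ⟨l, hl', h'⟩ := c.ad_dec hb
  have h1 := mul_mem (inv_mem (cent_mono (sup_le_sup (ozc_le O) (ozc_le R)) h')) h
  rw [mul_inv_rev, mul_assoc, inv_mul_cancel_left] at h1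
  have h3 : l⁻¹ * r * w ∈ ln O R := by
    obtain ⟨x, hx, a, ha, e⟩ := c.e2.mem_U.1 (mul_mem (inv_mem hl'.1) (mem_sup_left hr))
    rw [← e] at h1 ⊢
    have := (mul_mem_cancel_right (elem_le_cent c.e2.elem_ln (mem_sup_right ha))).1 h1
    exact mul_mem (mul_mem (mem_sup_left (c.e2.mem_om hx (c.e2.t'.cent_om_le (cent_mono le_sup_right this))))
      (mem_sup_right ha)) (mem_sup_right hw)
  have e : r * w = l * (l⁻¹ * r * w) := by group
  have k : Commute l (l⁻¹ * r * w) := by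
    have n2 : l⁻¹ * r * w * (l⁻¹ * r * w) = 1 := by rw [← pow_two]; exact c.e2.elem_ln.2 _ h3
    rw [e] at h2
    rw [Commute, SemiconjBy, ← inv_eq_of_mul_eq_one_right h2, mul_inv_rev, inv_eq_of_mul_eq_one_right n2,
      inv_eq_of_mul_eq_one_right (c.ad_sq' hl')]
  have k' := k.mul_left (show Commute (l⁻¹ * r) _ from (comm_of_mem h1 h3).symm)
  rw [mul_inv_cancel_left] at k'
  rw [e]
  exact mul_mem hl' (c.ad_le (c.e2.mem_om_of_comm hr hr' h3 (cel_eq_one.2 k')))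

theorem ad_nrm {k : G} (hk : k ∈ (O ⊔ R) ⊓ 𝒩(O)) (hl : l ∈ ll O R S) : k * l * k⁻¹ ∈ ll O R S := by
  have nN := c.e2.sup_le_norm_ln hk.1
  by_cases h : l ∈ ln O R
  · obtain ⟨v, hv, a, ha, rfl⟩ := c.e2.mem_ln.1 h
    obtain ⟨b, hb, b1⟩ := c.e3.t'.exists_om
    have a1 : a = 1 := by_contra fun a1 =>
      b1 (c.ad_nc hb ha a1 (comm_of_mem ((mul_mem_cancel_left (c.e3.cm hv)).1 hl.2) hb).symm)
    rw [a1, mul_one]
    exact c.ad_le (conj_mem (norm_le_norm_ozc O hk.2) hv)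
  · refine c.ad_invol ?_ (by rw [conj_mul, c.ad_sq' hl, mul_one, mul_inv_cancel]) fun e => h (by
      simpa [mul_assoc] using conj_mem' nN e)
    obtain ⟨x, hx, a, ha, rfl⟩ := c.e2.mem_U.1 hl.1
    rw [← conj_mul]
    exact mul_mem (mem_sup_left (conj_mem hk.2 hx)) (sup_le_sup_right (ozc_le O) _ (conj_mem nN (mem_sup_right ha)))

end Ac

theorem adThm : AdThm.{u} := by
  intro G _ _ O R S c
  refine ⟨c, c.ad_qr, fun _ => c.ad_onto, fun _ => c.ad_dec, elem_sup (ozc_elem S) (elem_iff.2 ⟨fun x hx =>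
    mem_cent_iff.2 fun y hy => ?_, fun a ha => (sq a).trans (c.ad_sq' ha)⟩) (le_centralizer_iff.1 inf_le_right),
    fun l hl => ?_, fun k hk => ?_⟩
  · rw [← inv_eq_of_mul_eq_one_right (c.ad_sq' (mul_mem hy hx)), mul_inv_rev, inv_eq_of_mul_eq_one_right (c.ad_sq' hx),
      inv_eq_of_mul_eq_one_right (c.ad_sq' hy)]
  · obtain ⟨x, hx, a, ha, rfl⟩ := c.e2.mem_U.1 hl.1.1
    obtain ⟨y, hy, hy'⟩ := c.e2.exists_not_om
    have a1 := c.e2.eq_one_of_cel hy hy' (ozc_le R ha)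
      (cel_eq_one.2 (comm_of_mem ((mul_mem_cancel_left (c.e2.ab hx)).1 hl.2) hy))
    rw [a1, mul_one] at hl ⊢
    exact c.e3.mem_om hx (c.e3.t'.cent_om_le hl.1.2)
  · have h1 : cj k (ll O R S) ≤ ll O R S := by
      rintro _ ⟨l, hl, rfl⟩
      exact c.ad_nrm hk hl
    refine ⟨mem_norm_of_cj_le h1, mem_norm_of_cj_le ?_⟩
    rw [cj_sup]
    refine sup_le ?_ (h1.trans le_sup_right)
    rintro _ ⟨b, hb, rfl⟩
    obtain ⟨l, hl, h⟩ := c.ad_dec hb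
    have e : k * b * k⁻¹ = b * l * (k * l * k⁻¹)⁻¹ := by
      calc _ = k * (b * l) * k⁻¹ * (k * l * k⁻¹)⁻¹ := by group
        _ = _ := by rw [comm_of_mem h hk.1, mul_inv_cancel_right]
    show k * b * k⁻¹ ∈ _
    rw [e]
    exact mul_mem (mul_mem (mem_sup_left hb) (mem_sup_right hl)) (inv_mem (mem_sup_right (c.ad_nrm hk hl)))

end CL.ATI
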