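/-
Abelian TI-subgroups that are not elementary abelian: the second line.
-/
import Cfsg.Agent.Timm.A2

set_option autoImplicit false

open Cfsg Subgroup
open scoped commutatorElement

namespace CL.ATI

open CL.Even CL.Timm CL.Grp CL.WTI

universe u

theorem l4_le {G : Type*} [Group G] [Finite G] {B P S : Subgroup G} (A : Ad B P S) (la : LA B P) (la' : LA B S) :
    om S ≤ B ⊔ om P := by
  obtain ⟨k, hk, kB, kP, fp, -⟩ := la.tor
  have e := A.e2
  have e' := A.e3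
  have h1 : ln B S ≤ om S ⊔ ll B P S := sup_le (le_sup_of_le_right (le_inf ((ozc_le B).trans le_sup_left) e'.cm)) le_sup_left
  have h2 : om (cj k S) ≤ ln B S := la'.cl.max _ (e'.pt.cj_right k) (cj_om k S ▸ (cj_le_of_le le_sup_left
    (A.nrm ⟨hk, kB⟩).2).trans ((elem_le_cent A.elem).trans (cent_mono h1)))
  have h3 : ∀ m ∈ om S, m⁻¹ * (k * m * k⁻¹) ∈ B ⊔ om P ∧ (m⁻¹ * (k * m * k⁻¹) ∈ om B → m = 1) := fun m hm => by
    obtain ⟨l, hl, h⟩ := A.dec m hm
    have e1 : m⁻¹ * (k * m * k⁻¹) = l * (k * l * k⁻¹)⁻¹ := by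
      rw [eq_mul_inv_iff_mul_eq, mul_assoc, conj_mul, comm_of_mem h hk, mul_inv_cancel_right, inv_mul_cancel_left]
    refine ⟨e1 ▸ mul_mem hl.1 (inv_mem (conj_mem (A.nrm ⟨hk, kB⟩).1 hl).1), fun h4 => by_contra fun m1 => ?_⟩
    obtain ⟨r, hr, w, hw, rfl⟩ := e.mem_U.1 hl.1
    have h5 : w * (k * w * k⁻¹)⁻¹ = 1 := e.eq_one' (by
      have := mul_mem (mul_mem (inv_mem hr) (ozc_le B (e1 ▸ h4))) (conj_mem kB hr)
      convert this using 1
      group) (mul_mem (ozc_le P hw) (inv_mem (conj_mem kP (ozc_le P hw))))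
    have h6 : r * (k * r * k⁻¹)⁻¹ ∈ om B := by
      rw [e1, ← conj_mul, mul_inv_rev, mul_assoc, ← mul_assoc w, h5, one_mul] at h4
      exact h4
    have h7 : r * r = 1 := fp _ (e.sq r hr) (by
      have := om_sq h6
      rw [(show Commute (k * r * k⁻¹)⁻¹ r from e.comm (inv_mem (conj_mem kB hr)) hr).mul_mul_mul_comm, ← mul_inv_rev,
        conj_mul, mul_inv_eq_one] at this
      exact this.symm)
    obtain ⟨r', hr', r1, h8⟩ := A.act m hm m1
    have h9 := elem_le_cent e.elem_ln (mul_mem (mem_sup_left (e.toTB.mem_om.2 ⟨hr, h7⟩)) (mem_sup_right hw))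
    have := mul_mem (mul_mem h9 (inv_mem (cent_mono (sup_le_sup (ozc_le B) (ozc_le P)) h))) h8
    exact r1 (e.mem_om hr' (e.t'.cent_om_le (cent_mono le_sup_right (by simpa [mul_assoc] using this))))
  have h4 : ∀ m ∈ om S, m⁻¹ * (k * m * k⁻¹) ∈ ln B S := fun m hm =>
    mul_mem (mem_sup_right (inv_mem hm)) (h2 (cj_om k S ▸ conj_mem_cj k hm))
  choose! v hv ψ hψ h5 using fun m hm => e'.mem_ln.1 (h4 m hm)
  intro s hs
  obtain ⟨m, hm, rfl⟩ := surj_of_inj le_rfl ψ hψ (fun m hm m' hm' h => by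
    have := (h3 _ (mul_mem hm hm')).2 (by
      rw [← conj_mul, mul_inv_rev, mul_assoc, ← mul_assoc m⁻¹, ← mul_assoc,
        comm_of_mem (elem_le_cent e'.elem_ln (h4 m hm)) (mem_sup_right (inv_mem hm')), mul_assoc, ← h5 m hm, ← h5 m' hm', h,
        (show Commute (ψ m') (v m') from comm_of_mem (e'.cm (hv m' hm')) (hψ m' hm')).mul_mul_mul_comm,
        om_sq (hψ m' hm'), mul_one]
      exact mul_mem (hv m hm) (hv m' hm'))
    rw [eq_inv_of_mul_eq_one_left this, inv_eq_of_mul_eq_one_right (om_sq hm')]) hs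
  have := mul_mem (inv_mem (mem_sup_left (ozc_le B (hv m hm)))) (h3 m hm).1
  rwa [← h5 m hm, inv_mul_cancel_left] at this

theorem l4Thm (act : ActThm.{u}) (ad : AdThm.{u}) : L4Thm.{u} := by
  intro G _ _ B P S e e' q la la' h1 h2
  have A : Ad B P S := ad ⟨e.toEh, e'.toEh, fun m hm m1 => by
    obtain ⟨x, hx, h⟩ := act la.cl (e'.le_ob hm) (h1 hm) (by rw [om_sq hm]; exact one_mem _)
    exact ⟨x, hx, fun hx' => h2 (la.cl.om_le_of_cent e'.pt (ozc_le S hm) m1 (by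
      simpa using mul_mem h (inv_mem (la.cl.ab' (mem_sup_left hx'))))), h⟩⟩
  have c4 := la'.four ((B ⊔ om S) ⊓ 𝒞(ln B P)) inf_le_left (fun u hu => e.sq_eq_one hu.2 (by
    obtain ⟨x, hx, a, ha, rfl⟩ := e'.mem_U.1 hu.1
    have := mul_mem hx (conj_mem (e'.symm.om_le_norm ha) hx)
    rwa [inv_eq_of_mul_eq_one_right (om_sq ha), ← mul_assoc, ← mul_assoc, mul_assoc (x * a)] at this))
    fun r hr => by
      obtain ⟨b, hb, h⟩ := A.onto r hr
      have := mul_mem (mem_sup_right (mem_sup_right (inv_mem hb) : b⁻¹ ∈ ln B S)) (mem_sup_left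
        (mem_inf.2 ⟨mul_mem (mem_sup_right hb) (mem_sup_left hr), h⟩))
      rwa [inv_mul_cancel_left] at this
  exact ⟨e, e', c4, by rw [q, c4], l4_le A la la', h2⟩

end CL.ATI
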