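/-
Abelian TI-subgroups that are not elementary abelian: lines.
-/
import Cfsg.Agent.Timm.A2
import Cfsg.Agent.Even.SL2Amb
import Cfsg.Agent.Even.NatSL2b

set_option autoImplicit false
set_option linter.unusedSectionVars false

open Cfsg Subgroup
open scoped commutatorElement

namespace CL.ATI

open CL.Even CL.Timm CL.Grp CL.WTI CL.Loc Matrix

universe u

variable {G : Type u} [Group G] [Finite G] {B P : Subgroup G}

theorem line_cl (e : Eg B P) (q : QR B) : Cl B (ln B P) where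
  toT1 := e.toT1
  elem := e.elem_ln
  gen := sup_le (le_iSup_of_le ⟨B, Pt.refl B, le_sup_left⟩ le_rfl) (le_iSup_of_le ⟨P, e.pt, le_sup_right⟩ le_rfl)
  mem := le_sup_left
  max S hS h := by
    by_contra hn
    have t := e.toT1.of_pt hS
    have eg : ∀ X, Pt B X → om X ≤ ln B P → Eg S X := fun X h1 h2 =>
      ⟨t, hS.symm.trans h1, fun e => hn (e ▸ h2), h.trans (cent_mono h2)⟩
    have h1 : ln B P ≤ ob S := sup_le (eg B (Pt.refl B) le_sup_left).le_ob (eg P e.pt le_sup_right).le_ob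
    obtain ⟨x, hx, hx'⟩ := t.exists_not_om
    have h2 := card_le_mul_of_fib (A := ln B P) (K := ⊥) (T := om S) (fun n => ⁅x, n⁆) (fun n hn => ob_cel (h1 hn) hx)
      fun a ha b hb h3 => by
        have h4 := mul_mem (inv_mem ha) hb
        have h5 : ⁅x, a⁻¹ * b⁆ = 1 := mul_left_cancel (a := ⁅x, a⁆) (by
          rw [← op_cel_mul (h1 ha) (h1 h4) hx, mul_inv_cancel_left, mul_one]; exact h3.symm)
        rcases e.toEh.cover q h4 with h6 | ⟨y, hy, h6⟩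
        · exact (eg B (Pt.refl B) le_sup_left).eq_one_of_cel hx hx' (ozc_le B h6) h5
        · exact (eg _ (e.pt.cj_right y) (cj_om y P ▸ cj_le_of_le le_sup_right (e.le_norm_ln hy))).eq_one_of_cel hx hx'
            (ozc_le _ h6) h5
    rw [inf_bot_eq, card_bot, e.card_ln, card_om hS] at h2
    have := Nat.le_of_mul_le_mul_left h2 Nat.card_pos
    have := e.four
    omega

theorem line_nat (e : Eg B P) (q : QR B) : ∃ (K : Type) (_ : Field K) (_ : Fintype K) (_ : CharP K 2)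
    (N : NatSec K (B ⊔ P) (ln B P) ⊥), Nat.card K = Nat.card (om B) ∧ N.line = om B ∧ B ≤ N.up ∧
      ∀ c, ∃ a ∈ B, N.r a = sl2Up c := by
  have h : QuadGen 2 (ln B P) (B ⊔ P) B 𝒩(B) := ⟨e.elem_ln, e.sup_le_norm_ln, le_normalizer, le_sup_left,
    fun y hy h => by
      obtain ⟨x, hx, h1⟩ := (e.toEh.eq_or q (Pt.of_cj y B) (e.toEh.om_cj_le (e.sup_le_norm_ln hy))).resolve_left
        fun h1 => h (cj_eq_iff_mem.1 h1)
      refine le_antisymm (sup_le le_sup_left (cj_le_of_le le_sup_left (le_normalizer hy))) (sup_le le_sup_left ?_)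
      rw [← cj_cj_inv x⁻¹ P, inv_inv, h1]
      exact cj_le_of_le le_sup_right (le_normalizer (mem_sup_left (inv_mem hx))),
    commutator_le.2 fun y hy x hx => ozc_le_cent B (ob_cel' (e.ln_le_ob hy) hx)⟩
  obtain ⟨x, hx, hx'⟩ := e.exists_not_om
  obtain ⟨y, hy, hy'⟩ := e.t'.exists_not_om
  have e1 : B ⊓ 𝒞(ln B P) = om B := le_antisymm
    (fun a ha => e.mem_om ha.1 (e.t'.cent_om_le (cent_mono le_sup_right ha.2)))
    (le_inf (ozc_le B) (le_sup_left.trans (elem_le_cent e.elem_ln)))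
  have e2 : ln B P ⊓ 𝒞(B) = om B := le_antisymm
    (fun a ha => e.toEh.mem_om_of_comm hx hx' ha.1 (cel_eq_one.2 (comm_of_mem ha.2 hx)))
    (le_inf le_sup_left (ozc_le_cent B))
  have e3 : ln B P ⊓ 𝒞(B ⊔ P) = ⊥ := eq_bot_iff.2 fun a ha => e.symm.eq_one_of_cel hy hy'
    (ozc_le B (e2.le ⟨ha.1, cent_mono le_sup_left ha.2⟩)) (cel_eq_one.2 (comm_of_mem ha.2 (mem_sup_right hy)))
  have hne : ¬ B ⊔ P ≤ 𝒩(B) := fun h => e.ne (e.wc e.pt (le_sup_right.trans h))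
  have hC : ¬ ln B P ⊓ 𝒞(B) ≤ 𝒞(B ⊔ P) := fun h =>
    let ⟨a, ha, a1⟩ := e.exists_om; a1 (mem_bot.1 (e3.le ⟨mem_sup_left ha, h (e2.ge ha)⟩))
  have hc : ∀ a ∈ B, (∀ y ∈ B ⊔ P, y⁻¹ * a * y ∈ 𝒩(B)) → a ∈ 𝒞(ln B P) := fun a ha hy => by
    obtain ⟨g, hg, h1⟩ := e.exists_cj_eq e.pt le_sup_left le_sup_right
    have : a ∈ 𝒩(cj g B) := cj_norm g B ▸ mem_cj.2 (hy g hg)
    exact (e1.ge (e.mem_om ha (h1 ▸ this))).2
  have hoff : Nat.card (ln B P) * Nat.card ↥(B ⊓ 𝒞(ln B P)) ≤ Nat.card B * Nat.card ↥(ln B P ⊓ 𝒞(B)) := by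
    rw [e1, e2, e.card_ln, q]
  obtain ⟨K, _, _, _, hK⟩ := h.exists_field hne hC hc hoff
  have h1 := h.exists_natSec hne hC hc hoff K hK
  rw [e3, e2] at h1
  obtain ⟨N, h1⟩ := h1
  rw [e1, q] at hK
  exact ⟨K, _, ‹_›, ‹_›, N, Nat.eq_of_mul_eq_mul_right Nat.card_pos hK, h1⟩

theorem lineThm : LineThm.{u} := by
  intro G _ _ B P e q
  classical
  obtain ⟨K, _, _, _, N, hK, hl, hu, hs⟩ := line_nat e q
  have two : (2 : K) = 0 := CharTwo.two_eq_zero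
  have m : ∀ {a}, a ∈ om B ↔ a ∈ ln B P ∧ N.ψ a 1 = 0 := by rw [← hl]; exact N.mem_line
  obtain ⟨a0, ha0, a1⟩ := e.exists_om
  have tor : ∀ {l : K} (h : l ≠ 0), ∃ k ∈ B ⊔ P, k ∈ 𝒩(B) ∧ N.r k = sl2Diag h := fun h => by
    obtain ⟨k, hk, h1⟩ := N.r_surj (sl2Diag h)
    refine ⟨k, hk, e.mem_norm (ozc_le B ha0) a1 (ozc_le B (m.2 ⟨conj_mem (N.norm hk) (m.1 ha0).1, ?_⟩)), h1⟩
    rw [N.ψ_conj k hk a0 (m.1 ha0).1, h1, sl2Diag_mulVec]
    simp [(m.1 ha0).2]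
  have h4 := e.four
  refine ⟨fun _ => e.toEh.cover q, line_cl e q, fun _ => e.toEh.adj q, ?_, fun M h1 h2 h3 => le_antisymm ?_ h4⟩
  · obtain ⟨l, l0, l1⟩ : ∃ l : K, l ≠ 0 ∧ l ≠ 1 := by
      by_contra! h
      have h1 : (Finset.univ : Finset K) ⊆ {0, 1} := fun l _ => by simpa [or_iff_not_imp_left] using h l
      have h2 := (Finset.card_le_card h1).trans Finset.card_le_two
      rw [Finset.card_univ, ← Nat.card_eq_fintype_card] at h2
      omega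
    obtain ⟨k, hk, k1, k2⟩ := tor l0
    obtain ⟨s, h1⟩ := exists_sl2_mulVec_eq' (v := ![(1 : K), 0]) (w := ![0, 1]) (by simp) (by simp)
    obtain ⟨g, hg, rfl⟩ := N.r_surj s
    have h2 : ∀ n ∈ ln B P, N.ψ n 0 = 0 → n ∈ om (cj g B) := fun n hn h => by
      obtain ⟨a, ha, h3⟩ := N.ψ_surj (N.ψ n 1 • ![(1 : K), 0])
      have h5 := (N.ψ_eq_iff (conj_mem (N.norm hg) ha) hn).1 (by
        rw [N.ψ_conj g hg a ha, h3, mulVec_smul, h1]; ext i; fin_cases i <;> simp [h])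
      rw [← mul_inv_eq_one.1 (mem_bot.1 h5), ← cj_om]
      exact conj_mem_cj g (m.2 ⟨ha, by simp [h3]⟩)
    obtain ⟨n, hn, h3⟩ := N.ψ_surj ![(0 : K), 1]
    have n1 : n ∉ om B := fun h => by simpa [h3] using (m.1 h).2
    have h5 := h2 n hn (by simp [h3])
    have h6 : k ∈ 𝒩(cj g B) := (e.toTB.conj g).mem_norm (ozc_le _ h5) (by rintro rfl; exact n1 (one_mem _))
      (ozc_le _ (h2 _ (conj_mem (N.norm hk) hn) (by rw [N.ψ_conj k hk n hn, k2, sl2Diag_mulVec]; simp [h3])))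
    obtain ⟨x, hx, h7⟩ := (e.toEh.eq_or q (Pt.of_cj g B) (e.toEh.om_cj_le (N.norm hg))).resolve_left
      fun h => n1 (h ▸ h5)
    have fp : ∀ v ∈ ln B P, x⁻¹ * k * x * v * (x⁻¹ * k * x)⁻¹ = v → v = 1 := fun v hv h => by
      have h8 := conj_mem (e.le_norm_ln hx) hv
      have h9 := N.ψ_conj k hk _ h8
      rw [show k * (x * v * x⁻¹) * k⁻¹ = x * v * x⁻¹ by nth_rw 2 [← h]; group, k2, sl2Diag_mulVec] at h9
      have e0 : N.ψ (x * v * x⁻¹) 0 = l * N.ψ (x * v * x⁻¹) 0 := congrFun h9 0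
      have e1 : N.ψ (x * v * x⁻¹) 1 = l⁻¹ * N.ψ (x * v * x⁻¹) 1 := congrFun h9 1
      simpa using (N.ψ_eq_zero _ h8).1 (vec_eq_zero.2 ⟨by_contra fun h => l1 (mul_right_cancel₀ h (by rw [← e0, one_mul])),
        by_contra fun h => l1 (inv_eq_one.1 (mul_right_cancel₀ h (by rw [← e1, one_mul])))⟩)
    exact ⟨x⁻¹ * k * x, conj_mem' (le_normalizer (mem_sup_left hx)) hk, conj_mem' (le_normalizer (le_normalizer hx)) k1,
      mem_cj.1 (by rw [cj_norm, h7]; exact h6), fun v hv => fp v (mem_sup_left hv), fun v hv => fp v (mem_sup_right hv)⟩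
  have sq : ∀ x ∈ B, ∀ t, N.r x = sl2Up t → ∀ n ∈ ln B P, x * n ∈ M → N.ψ (x * x) 0 = t * N.ψ n 1 := fun x hx t ht n hn h => by
    have h5 := conj_mem (e.le_norm_ln hx) hn
    have h6 : x * x = (x * n * x⁻¹)⁻¹ * n⁻¹ := by
      calc x * x = (x * n * x⁻¹)⁻¹ * (x * n * (x * n)) * n⁻¹ := by group
        _ = _ := by rw [h2 _ h, mul_one]
    rw [h6, N.ψ_div (inv_mem h5) hn, N.ψ_inv h5, N.ψ_conj x (mem_sup_left hx) n hn, ht, sl2Up_mulVec]
    simp only [Pi.sub_apply, Pi.neg_apply, cons_val_zero]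
    linear_combination (-N.ψ n 0 - t * N.ψ n 1) * two
  have ex : ∀ x ∈ B, ∃ n ∈ ln B P, x * n ∈ M := fun x hx => by
    obtain ⟨u, hu, n, hn, h⟩ := (mem_sup_nr (h1.trans e.U_le_norm)).1 (h3 hx)
    exact ⟨n⁻¹, inv_mem hn, by rwa [← h, mul_inv_cancel_right]⟩
  obtain ⟨x, hx, hx1⟩ := hs 1
  obtain ⟨n, hn, hn1⟩ := ex x hx
  have x2 := e.sq x hx
  have c0 : N.ψ (x * x) 0 ≠ 0 := fun h => one_ne_zero (sl2Up_eq_one_iff.1 (hx1.symm.trans (N.mem_ker.1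
    (N.inf_cent_le_ker ⟨mem_sup_left hx, elem_le_cent e.elem_ln (mem_sup_left (e.toTB.mem_om.2 ⟨hx, mem_bot.1
      ((N.ψ_eq_zero _ (m.1 x2).1).1 (vec_eq_zero.2 ⟨h, (m.1 x2).2⟩))⟩))⟩)).2))
  have key : ∀ l : K, l ≠ 0 → l ≠ 1 → l ^ 2 + l + 1 = 0 := fun l l0 l1 => by
    obtain ⟨k, hk, k1, k2⟩ := tor l0
    have hy := conj_mem k1 hx
    have hy1 : N.r (k * x * k⁻¹) = sl2Up (l ^ 2) := by
      rw [N.r_conj hk (mem_sup_left hx), k2, hx1, mul_inv_eq_iff_eq_mul]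
      exact sl2_ext fun v => by
        simp only [sl2_mul_mulVec, sl2Diag_mulVec, sl2Up_mulVec]
        ext i; fin_cases i <;> simp; field_simp
    obtain ⟨n', hn', hn1'⟩ := ex _ hy
    have s1 := sq x hx 1 hx1 n hn hn1
    have s2 := sq _ hy _ hy1 n' hn' hn1'
    have s0 : N.ψ (k * x * k⁻¹ * (k * x * k⁻¹)) 0 = l * N.ψ (x * x) 0 := by
      rw [conj_mul, N.ψ_conj k hk _ (m.1 x2).1, k2, sl2Diag_mulVec]; rfl
    generalize k * x * k⁻¹ = y at hy hy1 hn1' s2 s0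
    have h5 := conj_mem (e.le_norm_ln (inv_mem hy)) hn
    have s3 := sq _ (mul_mem hx hy) (1 + l ^ 2) (by rw [N.r_mul _ (mem_sup_left hx) _ (mem_sup_left hy), hx1, hy1, sl2Up_add])
      _ (mul_mem h5 hn') (by simpa [mul_assoc] using mul_mem hn1 hn1')
    rw [N.ψ_mul _ h5 _ hn', N.ψ_conj _ (mem_sup_left (inv_mem hy)) n hn, N.r_inv (mem_sup_left hy), hy1, sl2Up_inv,
      sl2Up_mulVec, show x * y * (x * y) = x * x * (y * y) by rw [mul_assoc, ← mul_assoc y, e.comm hy hx]; group,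
      N.ψ_mul _ (m.1 x2).1 _ (m.1 (e.sq y hy)).1] at s3
    simp only [Pi.add_apply, cons_val_one, cons_val_zero] at s3
    have l2 : l + 1 ≠ 0 := fun h => l1 (by linear_combination h - two)
    refine mul_left_cancel₀ l2 (mul_left_cancel₀ l0 (mul_left_cancel₀ c0 ?_))
    linear_combination (-(l ^ 2)) * s3 - s0 + (1 + l ^ 2) * l ^ 2 * s1 + (1 + l ^ 2) * s2 +
      N.ψ (x * x) 0 * l * (l ^ 2 + l) * two
  rw [← hK, Nat.card_eq_fintype_card, ← Finset.card_univ]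
  by_cases h : ∃ l : K, l ≠ 0 ∧ l ≠ 1
  · obtain ⟨l, l0, l1⟩ := h
    refine (Finset.card_le_card (t := {0, 1, l, l + 1}) fun z _ => ?_).trans Finset.card_le_four
    by_contra hz
    simp only [Finset.mem_insert, Finset.mem_singleton, not_or] at hz
    refine mul_ne_zero (sub_ne_zero.2 hz.2.2.1) (sub_ne_zero.2 hz.2.2.2) ?_
    linear_combination key z hz.1 hz.2.1 + key l l0 l1 - (z * l + z + 1) * two
  · push Not at h
    exact (Finset.card_le_card (t := {0, 1}) fun l _ => by simpa [or_iff_not_imp_left] using h l).trans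
      (Finset.card_le_two.trans (by omega))

end CL.ATI
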