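/-
Abelian TI-subgroups that are not elementary abelian: a point outside a clique normalizes it.
-/
import Cfsg.Agent.Timm.A1
import Cfsg.Agent.Even.Sidki

set_option autoImplicit false

open Cfsg Subgroup
open scoped commutatorElement

namespace CL.ATI

open CL.Even CL.Timm CL.Grp CL.WTI

universe u

variable {G : Type u} [Group G] [Finite G] {B E F Q : Subgroup G}

theorem part_cel (act : ActThm.{u}) (c : Cl B E) (c' : Cl B F) (h : Q ≤ 𝒩(E)) (hQ : Q ≤ 𝒩(B)) :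
    ⁅E ⊓ Q ⊔ F ⊓ Q, E⁆ ≤ om B := by
  have n : Q ≤ 𝒩(om B) := hQ.trans (norm_le_norm_ozc B)
  refine commutator_sup_le' (inf_le_right.trans n) (inf_le_right.trans n) (commutator_le.2 fun e he a ha => ?_)
    (commutator_le.2 fun e he a ha => ?_)
  · rw [cel_eq_one.2 (comm_of_mem (c.ab' ha) he.1)]; exact one_mem _
  · obtain ⟨x, hx, h1⟩ := act c (c'.le_ob he.1) (h he.2) (by rw [c'.sq' he.1]; exact one_mem _)
    have h2 := ob_cel (c.le_ob ha) (inv_mem hx)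
    rwa [← mul_inv_cancel_right e x, cel_mul_left, conj_eq_of_mem h1 (c.mem h2),
      cel_eq_one.2 (comm_of_mem h1 ha).symm, mul_one]

theorem part_ex (act : ActThm.{u}) (c : Cl B E) (mc : MC B) (hE : ¬ E ≤ om B) :
    ∃ S, Eg B S ∧ om S ≤ 𝒩(E) ∧ ¬ om S ≤ E := by
  by_contra! H
  have EM : E ≤ 𝒩(B) := c.le_ob.trans op_le_norm
  have H1 : ∀ g ∈ 𝒩(B), cj g E ≤ 𝒩(E) → g ∈ 𝒩(E) := fun g hg h => mem_norm_of_cj_le
    ((c.cj_right hg).le_of fun P hP hle => by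
      by_cases e : P = B
      · exact e ▸ c.mem
      · exact H P ((c.cj_right hg).eg hP hle e) (hle.trans h))
  obtain ⟨Q, hQ⟩ : ∃ Q, Q = pCoreOf 2 𝒩(B) := ⟨_, rfl⟩
  have QM : Q ≤ 𝒩(B) := hQ ▸ core_le _
  have MQ : 𝒩(B) ≤ 𝒩(Q) := hQ ▸ self_le_norm_core _
  have pQ : IsPGroup 2 Q := hQ ▸ core_isP _
  have BQ : B ≤ Q := hQ ▸ le_core le_normalizer c.isP le_rfl
  have H2 : Q ≤ 𝒩(E) := by
    by_contra hn
    obtain ⟨g, hg, hg'⟩ := SetLike.exists_of_lt (lt_inf_normalizer_of_isPGroup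
      (isPGroup_sup' pQ (elem_isP c.elem) (EM.trans MQ)) (D := (Q ⊔ E) ⊓ 𝒩(E))
      (lt_of_le_of_ne inf_le_left fun e => hn (le_sup_left.trans (e ▸ inf_le_right))))
    exact hg' ⟨hg.1, H1 g (sup_le QM EM hg.1)
      ((cj_le_of_le (le_inf le_sup_right le_normalizer) hg.2).trans inf_le_right)⟩
  obtain ⟨a, ha, na⟩ : ∃ a ∈ E, a ∉ Q := SetLike.not_le_iff_exists.1 fun h => hE (c.le_of fun P hP hle =>
    c.wc hP ((c.of_pt' hP hle).le_norm.trans (mc.max E (elem_isP c.elem) (fun e => hE (e ▸ bot_le))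
      fun m hm => H1 m hm ((cj_le_of_le h (MQ hm)).trans H2))) ▸ le_rfl)
  obtain ⟨⟨ρ, hρ⟩, r1, ro, ri⟩ := exists_odd_inverted_of_not_mem_pCore (t := (⟨a, EM ha⟩ : 𝒩(B)))
    (Subtype.ext (c.sq' ha)) (by rw [← subgroupOf_core, ← hQ]; exact na)
  rw [← orderOf_coe] at ro
  replace ri : a * ρ * a⁻¹ = ρ⁻¹ := congrArg Subtype.val ri
  have cp : (orderOf ρ).Coprime 2 := (Nat.coprime_two_right.2 ro)
  obtain ⟨k, hk⟩ := ro
  have hk' := pow_mem hρ (k + 1)
  have c' := c.cj_right hk'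
  have H3 : Q ≤ 𝒩(cj (ρ ^ (k + 1)) E) := by rw [← cj_norm, ← cj_eq (MQ hk')]; exact cj_mono _ H2
  have m : ρ ∈ E ⊔ cj (ρ ^ (k + 1)) E := by
    have e : ρ ^ (k + 1) * a * (ρ ^ (k + 1))⁻¹ * a⁻¹ = ρ := by
      rw [mul_assoc, mul_assoc, ← mul_assoc a, ← inv_pow, ← conj_pow, ← conj_inv, ri, inv_inv, ← pow_add,
        show k + 1 + (k + 1) = 2 * k + 1 + 1 by ring, ← show orderOf ρ = _ from hk, pow_succ, pow_orderOf_eq_one,
        one_mul]
    have := (E ⊔ cj (ρ ^ (k + 1)) E).mul_mem (mem_sup_right (conj_mem_cj _ ha)) (mem_sup_left (inv_mem ha))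
    rwa [e] at this
  generalize cj (ρ ^ (k + 1)) E = F at c' H3 m
  have FM : F ≤ 𝒩(B) := c'.le_ob.trans op_le_norm
  have v1 := part_cel act c c' H2 QM
  have v2 := part_cel act c' c H3 QM
  rw [sup_comm] at v2
  have AV : om B ≤ E ⊓ Q ⊔ F ⊓ Q := le_sup_of_le_left (le_inf c.mem ((ozc_le B).trans BQ))
  have z1 : ρ ∈ 𝒞(E ⊓ Q ⊔ F ⊓ Q) := mem_cent_of_coprime (ozc_isP B) cp (fun v hv => commutator_sup_le
    (EM.trans (norm_le_norm_ozc B)) (FM.trans (norm_le_norm_ozc B)) v1 v2 (commutator_mem_commutator hv m))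
    (sup_le (c.ab'.trans (cent_mono c.mem)) (c'.ab'.trans (cent_mono c'.mem)) m)
  have z2 : ρ ∈ 𝒞(Q) := mem_cent_of_coprime (pQ.to_le (sup_le inf_le_right inf_le_right)) cp
    (fun v hv => commutator_sup_le (le_norm_of_commutator_le (v1.trans AV)) (le_norm_of_commutator_le (v2.trans AV))
      (le_sup_of_le_left (le_inf (commutator_le_of_le_norm' H2) (commutator_le_of_le_norm (EM.trans MQ))))
      (le_sup_of_le_right (le_inf (commutator_le_of_le_norm' H3) (commutator_le_of_le_norm (FM.trans MQ))))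
      (commutator_mem_commutator hv m)) z1
  exact r1 (Subtype.ext (mc.chr.eq_one hρ cp (hQ ▸ z2)))

theorem partThm (act : ActThm.{u}) : PartThm.{u} := by
  intro G _ _ B E c mc hE
  obtain ⟨S, e, h1, h2⟩ := part_ex act c mc hE
  refine ⟨le_antisymm e.card_le ?_, S, e, h1, h2⟩
  have h3 : ∀ a, ∃ x, a ∈ om S → x ∈ B ∧ a * x ∈ 𝒞(E) := fun a => by
    by_cases ha : a ∈ om S
    · obtain ⟨x, hx⟩ := act c (e.le_ob ha) (h1 ha) (by rw [om_sq ha]; exact one_mem _)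
      exact ⟨x, fun _ => hx⟩
    · exact ⟨1, fun h => absurd h ha⟩
  choose x hx using h3
  have := card_mul_le_of_inj (A := om S) (ozc_le B) x (fun a ha => (hx a ha).1) fun a ha b hb h => by_contra fun n =>
    h2 (c.om_le_of_cent e.pt (ozc_le S (mul_mem hb (inv_mem ha))) (fun k => n (mul_inv_eq_one.1 k).symm) (by
      simpa [mul_assoc] using mul_mem (mul_mem (hx b hb).2 (inv_mem (c.ab' (c.mem h)))) (inv_mem (hx a ha).2)))
  rwa [card_om e.pt] at this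

end CL.ATI
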