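/-
Abelian TI-subgroups that are not elementary abelian: the centralizers.
-/
import Cfsg.Agent.Timm.A1

set_option autoImplicit false
set_option linter.unusedSectionVars false

open Cfsg Subgroup
open scoped commutatorElement

namespace CL.ATI

open CL.Even CL.Timm CL.Grp CL.WTI

universe u

section

variable {G : Type*} [Group G] [Finite G] {B P S T : Subgroup G} {a b c g k m r v x : G}

theorem rone_four (h4 : Nat.card (om B) = 4) (hb : b ∈ om B) (hc : c ∈ om B) (h1 : b ≠ 1) (h2 : c ≠ 1) (h3 : c ≠ b)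
    (hv : v ∈ om B) : v = 1 ∨ v = b ∨ v = c ∨ v = b * c := by
  have h7 : b * c ≠ 1 := fun e => h3 (by rw [← mul_left_cancel_iff (a := b), e, om_sq hb])
  have h5 : b * c ≠ b := fun e => h2 (mul_eq_left.mp e)
  have h6 : b * c ≠ c := fun e => h1 (mul_eq_right.mp e)
  have hs : ({1, b, c, b * c} : Set G) = om B := by
    refine Set.eq_of_subset_of_ncard_le ?_ ?_ (Set.toFinite _)
    · rintro x (rfl | rfl | rfl | rfl)
      exacts [one_mem _, hb, hc, mul_mem hb hc]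
    · rw [show (om B : Set G).ncard = 4 from h4, Set.ncard_insert_of_notMem (by simp [h1.symm, h2.symm, h7.symm]),
        Set.ncard_insert_of_notMem (by simp [h3.symm, h5.symm]), Set.ncard_pair h6.symm]
  have : v ∈ ({1, b, c, b * c} : Set G) := hs ▸ hv
  simpa using this

/-- a fixed point free automorphism of the four-group -/
theorem rone_sq (h4 : Nat.card (om B) = 4) (hk : k ∈ 𝒩(om B)) (hf : ∀ v ∈ om B, k * v * k⁻¹ = v → v = 1)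
    (ha : a ∈ om B) (a1 : a ≠ 1) : k * (k * a * k⁻¹) * k⁻¹ = a * (k * a * k⁻¹) := by
  have hb := conj_mem hk ha
  have b1 : k * a * k⁻¹ ≠ 1 := by simpa using a1
  have ba : k * a * k⁻¹ ≠ a := fun e => a1 (hf a ha e)
  rcases rone_four h4 ha hb a1 b1 ba (conj_mem hk hb) with e | e | e | e
  · exact (b1 (by simpa using e)).elim
  · refine (ba (mul_left_cancel (a := a) ?_)).elim
    rw [om_sq ha]
    refine hf _ (mul_mem ha hb) ?_
    rw [show k * (a * (k * a * k⁻¹)) * k⁻¹ = k * a * k⁻¹ * (k * (k * a * k⁻¹) * k⁻¹) by group, e]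
    exact om_comm ha (ozc_le B hb)
  · exact (b1 (hf _ hb e)).elim
  · exact e

theorem rone_same (h4 : Nat.card (om B) = 4) (hk : k ∈ 𝒩(om B)) (hf : ∀ v ∈ om B, k * v * k⁻¹ = v → v = 1)
    (hm : m ∈ 𝒩(om B)) (hf' : ∀ v ∈ om B, m * v * m⁻¹ = v → v = 1) (ha : a ∈ om B) (a1 : a ≠ 1)
    (e : m * a * m⁻¹ = k * a * k⁻¹) : k * m⁻¹ ∈ 𝒞(om B) := by
  have h1 := rone_sq h4 hm hf' ha a1
  rw [e, ← rone_sq h4 hk hf ha a1] at h1
  have h2 : ∀ v ∈ om B, m * v * m⁻¹ = k * v * k⁻¹ := fun v hv => by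
    rcases rone_four h4 ha (conj_mem hk ha) a1 (by simpa using a1) (fun e => a1 (hf a ha e)) hv with h | h | h | h
    · rw [h]; group
    · rw [h, e]
    · rw [h, h1]
    · rw [h]
      calc _ = m * a * m⁻¹ * (m * (k * a * k⁻¹) * m⁻¹) := by group
        _ = _ := by rw [e, h1]; group
  refine mem_cent_iff.2 fun v hv => ?_
  calc _ = m * (m⁻¹ * v * m) * m⁻¹ * (k * m⁻¹) := by group
    _ = _ := by rw [h2 _ (conj_mem' hm hv)]; group

theorem rone_pair (h4 : Nat.card (om B) = 4) (ha : a ∈ om B) (a1 : a ≠ 1) (hk : k ∈ 𝒩(om B))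
    (hf : ∀ v ∈ om B, k * v * k⁻¹ = v → v = 1) (hm : m ∈ 𝒩(om B)) (hf' : ∀ v ∈ om B, m * v * m⁻¹ = v → v = 1) :
    k * m⁻¹ ∈ 𝒞(om B) ∨ k * m ∈ 𝒞(om B) := by
  rcases rone_four h4 ha (conj_mem hk ha) a1 (by simpa using a1) (fun e => a1 (hf a ha e)) (conj_mem hm ha)
    with e | e | e | e
  · exact (a1 (by simpa using e)).elim
  · exact (a1 (hf' a ha e)).elim
  · exact .inl (rone_same h4 hk hf hm hf' ha a1 e)
  · refine .inr (inv_inv m ▸ rone_same h4 hk hf (inv_mem hm) (fun v hv h => hf' v hv ?_) ha a1 ?_)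
    · calc _ = m * (m⁻¹ * v * m⁻¹⁻¹) * m⁻¹ := by rw [h]
        _ = _ := by group
    · have h1 := rone_sq h4 hm hf' ha a1
      rw [e, ← mul_assoc a a, om_sq ha, one_mul,
        show m * (a * (k * a * k⁻¹)) * m⁻¹ = m * a * m⁻¹ * (m * (k * a * k⁻¹) * m⁻¹) by group, e, mul_assoc a,
        om_comm (conj_mem hm (conj_mem hk ha)) (ozc_le B (conj_mem hk ha)), ← mul_assoc a, mul_eq_right] at h1
      have h2 : m * (k * a * k⁻¹) * m⁻¹ = a := mul_left_cancel (h1.trans (om_sq ha).symm)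
      calc _ = m⁻¹ * (m * (k * a * k⁻¹) * m⁻¹) * m⁻¹⁻¹ := by rw [h2]
        _ = _ := by group

/-- the points of a line -/
theorem rone_pts (e : Eg B P) (la : LA B P) (e' : Eg B T) (h : om T ≤ ln B P) : ∃ x ∈ B, cj x P = T := by
  obtain ⟨d, hd, d1⟩ := e'.t'.exists_om
  rcases la.cover d (h hd) with h1 | ⟨x, hx, h1⟩
  · exact (d1 (e'.eq_one' (ozc_le B h1) (ozc_le T hd))).elim
  · exact ⟨x, hx, e.eq_of_mem_pt (e.pt.cj_right x) e'.pt (ozc_le _ h1) (ozc_le T hd) d1⟩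

theorem rone_adj (la : LA B P) (hg : g ∈ 𝒞(B ⊔ om P)) : ∃ a ∈ om B, g * a ∈ 𝒞(B ⊔ P) := by
  rw [cent_sup] at hg
  obtain ⟨a, ha, h⟩ := la.adj g hg.1 hg.2
  exact ⟨a, ha, by rw [cent_sup]; exact ⟨mul_mem hg.1 (ozc_le_cent B ha), h⟩⟩

theorem rone_RU : 𝒞(B ⊔ P) ≤ 𝒞(B ⊔ om P) := cent_mono (sup_le_sup_left (ozc_le P) B)

theorem rone_cj (hm : m ∈ 𝒩(B)) (hx : x ∈ B) (h : cj x T = cj m P) :
    cj m (B ⊔ P) = B ⊔ T ∧ cj m (B ⊔ om P) = B ⊔ om T := by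
  have hx' := cj_eq (le_normalizer hx)
  constructor
  · rw [cj_sup, cj_eq hm, ← h, ← cj_eq (le_normalizer (mem_sup_left hx : x ∈ B ⊔ T)), cj_sup, hx']
  · rw [cj_sup, cj_eq hm, cj_om, ← h, ← cj_eq (le_normalizer (mem_sup_left hx : x ∈ B ⊔ om T)), cj_sup, hx', cj_om]

variable (l : L4 B P S) (la : LA B P) (la' : LA B S) (tw : Two B P S)
include l la la' tw

theorem rone_b (hm : m ∈ 𝒩(B)) : m ∈ 𝒩(B ⊔ om P) ∧ (cj m (B ⊔ P) = B ⊔ P ∨ cj m (B ⊔ P) = B ⊔ S) := by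
  rcases tw _ (l.toEg.cj_right hm) with h | h
  · obtain ⟨x, hx, e⟩ := rone_pts l.toEg la (l.toEg.cj_right hm) h
    exact ⟨cj_eq_iff_mem.1 (rone_cj hm hx e).2, .inl (rone_cj hm hx e).1⟩
  · obtain ⟨x, hx, e⟩ := rone_pts l.eg la' (l.toEg.cj_right hm) h
    exact ⟨cj_eq_iff_mem.1 ((rone_cj hm hx e).2.trans l.U_eq), .inr (rone_cj hm hx e).1⟩

theorem rone_c : 𝒞(ln B P) ≤ (B ⊔ om P) ⊔ 𝒞(B ⊔ P) := fun g hg => by
  have t := l.twoA la.cl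
  have h1 := l.cent_le_ob hg
  have h2 := t.mem_norm' (rone_b l la la' tw (op_le_norm h1)).1 (cent_le_norm _ hg)
  obtain ⟨x, hx, e⟩ := rone_pts l.eg la' (l.eg.cj_right (op_le_norm h1))
    (cj_om g S ▸ cj_le_of_le le_sup_right h2)
  obtain ⟨n, hn, n', hn', rfl⟩ := t.exists_mul (mem_sup_left hx)
  rw [cj_mul, cj_eq ((sup_le l.eg.om_le_norm ((ozc_le S).trans le_normalizer) : ln B S ≤ 𝒩(S)) hn')] at e
  have h3 : n⁻¹ * g ∈ 𝒞(B ⊔ om P) := by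
    rw [← t.sup, cent_sup]
    exact ⟨mul_mem ((𝒞(ln B P)).inv_mem (elem_le_cent l.elem_ln hn)) hg,
      l.eg.cent_ln_of_ob (mul_mem (inv_mem (l.ln_le_ob hn)) h1) (cj_eq_cj_iff.1 e.symm)⟩
  obtain ⟨a, ha, h4⟩ := rone_adj la h3
  rw [show g = n * (n⁻¹ * g * a) * a⁻¹ by group]
  exact mul_mem (mul_mem (mem_sup_left (l.ln_le_U hn)) (mem_sup_right h4))
    (inv_mem (mem_sup_left (mem_sup_left (ozc_le B ha))))

theorem rone_d : 𝒞(om B) ⊓ 𝒩(ln B P) ≤ (B ⊔ om P) ⊔ 𝒞(B ⊔ P) := fun g hg => by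
  have h0 := l.cent_om_le hg.1
  have h1 : g ∈ ob B := WTI.mem_op.2 ⟨h0, hg.1, fun x hx => l.toTB.mem_om.2 ⟨cel_mem_left hx h0, by
    have h2 := l.comm hx (conj_mem h0 (inv_mem hx))
    have h3 := conj_eq_of_mem hg.1 (inv_mem (l.sq x hx))
    calc _ = x * (g * x⁻¹ * g⁻¹ * x) * (g * x⁻¹ * g⁻¹) := by simp only [cel_def]; group
      _ = x * x * (g * (x * x)⁻¹ * g⁻¹) := by rw [← h2]; group
      _ = 1 := by rw [h3, mul_inv_cancel]⟩⟩
  obtain ⟨x, hx, e⟩ := rone_pts l.toEg la (l.toEg.cj_right h0) (cj_om g P ▸ cj_le_of_le le_sup_right hg.2)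
  rw [← mul_inv_cancel_left x g]
  exact mul_mem (mem_sup_left (mem_sup_left hx)) (rone_c l la la' tw
    (l.cent_ln_of_ob (mul_mem (inv_mem (l.toTB.le_ob hx)) h1) (cj_eq_cj_iff.1 e.symm)))

theorem rone_e : 𝒞(B ⊔ P) ≤ 𝒞(B ⊔ S) := fun r hr => by
  obtain ⟨k, hk, k1, -, k2, -⟩ := la.tor
  obtain ⟨m, hm, m1, -, m2, -⟩ := la'.tor
  obtain ⟨b, hb, b1⟩ := l.exists_om
  have m3 : m ∈ 𝒩(ln B P) := (l.twoA la.cl).symm.mem_norm' (rone_b l la la' tw m1).1 (l.eg.sup_le_norm_ln hm)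
  obtain ⟨n, hn, n1, n2⟩ : ∃ n ∈ B ⊔ S, n ∈ 𝒩(ln B P) ∧ k * n ∈ 𝒞(om B) :=
    (rone_pair l.c4 hb b1 (norm_le_norm_ozc B k1) k2 (norm_le_norm_ozc B m1) m2).elim
      (fun h => ⟨_, inv_mem hm, inv_mem m3, h⟩) fun h => ⟨_, hm, m3, h⟩
  obtain ⟨a, ha, h1⟩ := rone_adj la' (l.U_eq ▸ rone_RU hr)
  have h2 : k * n ∈ 𝒩(𝒞(B ⊔ P)) := (sup_le (((le_centralizer_iff.1 rone_RU)).trans (cent_le_norm _)) le_normalizer :
    _ ≤ 𝒩(𝒞(B ⊔ P))) (rone_d l la la' tw ⟨n2, mul_mem (l.sup_le_norm_ln hk) n1⟩)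
  have h3 : r⁻¹ * (k * n * r * (k * n)⁻¹) = k * a * k⁻¹ * a⁻¹ := by
    calc _ = r⁻¹ * (k * (n * (r * a)) * (k * n)⁻¹) * (k * n * a * (k * n)⁻¹)⁻¹ := by group
      _ = r⁻¹ * (k * r) * a * k⁻¹ * a⁻¹ := by rw [comm_of_mem h1 hn, conj_eq_of_mem n2 ha]; group
      _ = _ := by rw [comm_of_mem hr hk]; group
  have h4 := mul_mem (inv_mem hr) (conj_mem h2 hr)
  rw [h3] at h4
  obtain ⟨x, hx, hx'⟩ := l.t'.exists_not_om
  have h5 := l.toEg.symm.eq_one_of_cel hx hx'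
    (ozc_le B (mul_mem (conj_mem (norm_le_norm_ozc B k1) ha) (inv_mem ha)))
    (cel_eq_one.2 (comm_of_mem h4 (mem_sup_right hx)))
  rwa [k2 a ha (mul_inv_eq_one.1 h5), mul_one] at h1

theorem rone_f (mc : MC B) : 𝒞(B ⊔ P) = ⊥ := by
  have h0 : 𝒞(B ⊔ S) = 𝒞(B ⊔ P) :=
    le_antisymm (rone_e l.symm' la' la fun T h => (tw T h).symm) (rone_e l la la' tw)
  have h1 : 𝒩(B) ≤ 𝒩(𝒞(B ⊔ P)) := fun m hm => cj_eq_iff_mem.1 (by
    rcases (rone_b l la la' tw hm).2 with e | e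
    · rw [cj_cent, e]
    · rw [cj_cent, e, h0])
  have h2 : 𝒞(B ⊔ P) ≤ 𝒩(B) := (cent_mono le_sup_left).trans (cent_le_norm _)
  have h3 : 𝒞(B ⊔ P) ⊓ pCoreOf 2 𝒩(B) = ⊥ := by_contra fun h => l.ne (l.wc l.pt (le_trans
    ((le_centralizer_iff.1 (inf_le_left.trans (cent_mono le_sup_right))).trans (cent_le_norm _))
    (mc.max _ (core_isP _).to_inf_right h (le_norm_inf h1 (self_le_norm_core _)))))
  have h4 : 𝒞(B ⊔ P) ≤ 𝒞(pCoreOf 2 𝒩(B)) := commutator_eq_bot_iff'.1 (eq_bot_iff.2 (h3.symm ▸ le_inf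
    (commutator_le_of_le_norm' ((core_le _).trans h1)) (commutator_le_of_le_norm (h2.trans (self_le_norm_core _)))))
  exact eq_bot_iff.2 (h3.symm ▸ le_inf le_rfl ((le_inf h2 h4).trans mc.chr))

end

theorem roneThm : ROneThm.{u} := fun {G} _ _ {B P S} mc l la la' tw => by
  have h := rone_f l la la' tw mc
  refine ⟨l, la, la', tw, fun g hg => ?_, by simpa only [h, sup_bot_eq] using rone_d l la la' tw⟩
  obtain ⟨a, ha, h1⟩ := rone_adj la hg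
  rw [h, mem_bot] at h1
  exact eq_inv_of_mul_eq_one_left h1 ▸ inv_mem ha

end CL.ATI
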