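/-
Abelian TI-subgroups that are not elementary abelian: reduction of the statement.
-/
import Cfsg.Agent.Timm.A2
import Cfsg.Agent.Grp.PGroupCyc
import Cfsg.Prelude.Def_CaseTheorems

set_option autoImplicit false

open Cfsg Subgroup
open scoped commutatorElement

namespace CL.ATI

open CL.Even CL.Timm CL.Grp CL.WTI

universe u

theorem stmt_of (c : CoreThm.{u}) {G : Type u} [Group G] [Finite G] (hO : pCore 2 G = ⊥) (M : Subgroup G)
    (hM : IsMaximalTwoLocal M) (hMc : IsOfCharacteristicTwo M) (B : Subgroup G) (hBM : B ≤ M)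
    (hBn : ∀ m ∈ M, ∀ b ∈ B, m * b * m⁻¹ ∈ B) (hBa : IsMulCommutative B)
    (hti : ∀ g : G, cj g B = B ∨ cj g B ⊓ B = ⊥) : IsCyclic B ∨ Fin4 B ∨ IsElementaryAbelian 2 B := by
  by_contra hn
  push Not at hn
  obtain ⟨h1, h2, h3⟩ := hn
  have ch : IsCharP 2 M := isCharP_iff.2 hMc
  have ab : B ≤ 𝒞(B) := le_centralizer_iff_isMulCommutative.2 hBa
  have nB : M ≤ 𝒩(B) := fun m hm => mem_norm_of_cj_le (by rintro _ ⟨b, hb, rfl⟩; exact hBn m hm b hb)
  have hP : IsPGroup 2 B := isPGroup_of_coprime fun x hx ho => ch.eq_one (hBM hx) ho (mem_cent_iff.2 fun q hq => by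
    have h4 : ⁅x, q⁆ ∈ pCoreOf 2 M := cel_mem_right (le_norm_core le_normalizer (hBM hx)) hq
    obtain ⟨k, hk⟩ := isPGroup_iff_forall.1 (core_isP M) _ h4
    exact (cel_eq_one.1 (commutator_eq_one_of_coprime ho
      (comm_of_mem (ab (cel_mem_left hx (nB (core_le M hq)))) hx) hk)).symm)
  have hB1 : B ≠ ⊥ := by rintro rfl; exact h1 inferInstance
  obtain rfl : 𝒩(B) = M := hM.2 _ ⟨B, hP, hB1, rfl⟩ nB
  refine h2 (c ⟨hP, ab, hti, ?_, fun h => h3 ⟨hBa, fun a ha => (mem_ozc.1 (h ha)).2.2⟩⟩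
    ⟨fun R h4 h5 h6 => (hM.2 _ ⟨R, h4, h5, rfl⟩ h6).le, ch⟩ hO)
  refine (sq_le_card_omegaOne_of_not_isCyclic hP hBa h1).trans (card_le_of_le ?_)
  exact closure_le _ |>.2 fun x hx => mem_ozc.2 ⟨hx.1, ab hx.1, hx.2⟩

end CL.ATI
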