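/-
Abelian TI-subgroups that are not elementary abelian: there are two lines through a point.
-/
import Cfsg.Agent.Timm.A1

set_option autoImplicit false
set_option linter.unusedSectionVars false

open Cfsg Subgroup
open scoped commutatorElement

namespace CL.ATI

open CL.Even CL.Timm CL.Grp CL.WTI

universe u

variable {G : Type u} [Group G] [Finite G] {B P S S' V : Subgroup G} {a b m v x y : G}

theorem two_four (h4 : Nat.card V = 4) (ha : a ∈ V) (hb : b ∈ V) (a1 : a ≠ 1) (b1 : b ≠ 1) (ab : a ≠ b) (a2 : a * a = 1)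
    (hv : v ∈ V) : v = 1 ∨ v = a ∨ v = b ∨ v = a * b := by
  have n1 : (1 : G) ≠ a * b := fun e => ab (mul_left_cancel (a2.trans e))
  have n2 : a ≠ a * b := fun e => b1 (by simpa using e)
  have n3 : b ≠ a * b := fun e => a1 (by simpa using e)
  have e : ({1, a, b, a * b} : Set G) = V := Set.eq_of_subset_of_ncard_le (by
    rintro _ (rfl | rfl | rfl | rfl)
    exacts [one_mem V, ha, hb, mul_mem ha hb]) (by
    rw [Set.ncard_insert_of_notMem (by simp only [Set.mem_insert_iff, Set.mem_singleton_iff, not_or]; exact ⟨a1.symm, b1.symm, n1⟩),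
      Set.ncard_insert_of_notMem (by simp only [Set.mem_insert_iff, Set.mem_singleton_iff, not_or]; exact ⟨ab, n2⟩),
      Set.ncard_pair n3]
    exact h4.le)
  exact (e.ge hv :)

theorem two_ex (t : TB B) : ∃ a ∈ om B, ∃ b ∈ om B, a ≠ 1 ∧ b ≠ 1 ∧ a ≠ b := by
  obtain ⟨a, ha, a1⟩ := t.exists_om
  by_contra! h
  have h1 := Set.ncard_le_ncard (s := (om B : Set G)) (t := {1, a}) fun b hb =>
    or_iff_not_imp_left.2 fun b1 => (h a ha b hb a1 b1).symm
  have h2 := Set.ncard_insert_le (1 : G) {a}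
  have h3 : 4 ≤ (om B : Set G).ncard := t.four
  rw [Set.ncard_singleton] at h2
  omega

theorem two_cel (t : T1 B) (h : m ∈ ob B) (m2 : m * m = 1) (hx : x ∈ B) : m * x * (m * x) = 1 ↔ ⁅x, m⁆ = x * x := by
  rw [ob_mul_sq h hx, m2, one_mul, mul_eq_one_iff_eq_inv, inv_eq_of_mul_eq_one_right (om_sq (t.sq x hx))]

theorem two_u1 (l : L4 B P S) (c : Cl B (ln B P)) (hm : m ∈ om P) (m1 : m ≠ 1) (hx : x ∈ B) (hx' : x ∉ om B)
    (e : ⁅x, m⁆ = x * x) (hy : y ∈ B) (hy' : y ∉ om B) (hxy : x * y ∉ om B) : ⁅y, m⁆ = x * x * (y * y) := by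
  have o := l.le_ob hm
  have n : ∀ z ∈ B, z ∉ om B → z * z ≠ 1 := fun z hz h e => h (l.toTB.mem_om.2 ⟨hz, e⟩)
  have cxy : Commute x y := l.toTB.comm hx hy
  rcases two_four l.c4 (l.sq x hx) (l.sq y hy) (n x hx hx') (n y hy hy') (fun e' => n _ (mul_mem hx hy) hxy (by
    rw [← sq, cxy.mul_pow, sq, sq, ← e', om_sq (l.sq x hx)])) (om_sq (l.sq x hx)) (ob_cel o hy) with h | h | h | h
  · exact (hy' (l.mem_om_of_cel hy (ozc_le P hm) m1 h)).elim
  · exact (hxy (l.mem_om_of_cel (mul_mem hx hy) (ozc_le P hm) m1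
      (by rw [ob_cel_mul' o hx hy, e, h, om_sq (l.sq x hx)]))).elim
  · have k : ∀ z ∈ B, z ∉ om B → ⁅z, m⁆ = z * z → m * z ∈ ln B S := fun z hz hz' e =>
      ((l.twoA c).mem_of_sq (mul_mem (mem_sup_right hm) (mem_sup_left hz)) ((two_cel l.toT1 o (om_sq hm) hz).2 e)).resolve_left
        fun h => hz' (l.mem_om_of_ln hz ((mul_mem_cancel_left (mem_sup_right hm)).1 h))
    have := mul_mem (inv_mem (k x hx hx' e)) (k y hy hy' h)
    rw [mul_inv_rev, mul_assoc, inv_mul_cancel_left] at this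
    have := mul_mem (l.sq x hx) (l.eg.mem_om_of_ln (mul_mem (inv_mem hx) hy) this)
    rw [mul_assoc, mul_inv_cancel_left] at this
    exact (hxy this).elim
  · exact h

variable (act : ActThm.{u}) (all : ∀ P', Eg B P' → LA B P' ∧ ∃ S', L4 B P' S')
include act all

theorem two_single (l : L4 B P S) (e : Eg B S') (hm : m ∈ om S') (m1 : m ≠ 1) (hn : m ∈ 𝒩(ln B P)) :
    om S' ≤ ln B P ∨ om S' ≤ ln B S := by
  have c := (all P l.toEg).1.cl
  have c' := (all S l.eg).1.cl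
  have o := e.le_ob hm
  obtain ⟨x, hx, h⟩ := act c o hn (om_sq hm ▸ one_mem _)
  by_cases hx' : x ∈ om B
  · exact .inl (c.om_le_of_cent e.pt (ozc_le _ hm) m1 ((mul_mem_cancel_right (c.ab' (mem_sup_left hx'))).1 h))
  have e1 := (two_cel l.toT1 o (om_sq hm) hx).1 (l.sq_eq_one h (by
    rw [ob_mul_sq o hx, om_sq hm, one_mul]
    exact mul_mem (ozc_le _ (ob_cel o hx)) (mul_mem hx hx)))
  obtain ⟨n', hn', n, hn, e2⟩ := (l.twoA c).symm.exists_mul (mem_sup_left hx)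
  obtain ⟨v, hv, m0, h0, rfl⟩ := l.eg.mem_ln.1 hn'
  have o0 := l.eg.le_ob h0
  have k : m0 * x ∈ ln B P := by
    rw [← e2, ← comm_of_mem (l.eg.cm hv) h0, mul_assoc m0, ← mul_assoc, om_sq h0, one_mul]
    exact mul_mem (mem_sup_left hv) hn
  have n0 : m0 ≠ 1 := fun e => hx' (l.mem_om_of_ln hx (by rwa [e, one_mul] at k))
  have e3 := (two_cel l.toT1 o0 (om_sq h0) hx).1 (c.sq' k)
  have hB : m * m0 ∈ 𝒞(B) := mem_cent_iff.2 fun y hy => cel_eq_one.1 (by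
    rw [op_cel_mul o o0 hy, show ⁅y, m⁆ = ⁅y, m0⁆ from ?_, om_sq (ob_cel o0 hy)]
    by_cases hy' : y ∈ om B
    · rw [ob_cel_om o hy', ob_cel_om o0 hy']
    by_cases hxy : x * y ∈ om B
    · refine mul_left_cancel (a := x * x) ?_
      rw [← e1, ← ob_cel_mul' o hx hy, e1, ← e3, ← ob_cel_mul' o0 hx hy, ob_cel_om o hxy, ob_cel_om o0 hxy]
    · obtain ⟨la, _, l1⟩ := all S' e
      obtain ⟨-, _, l2⟩ := all S l.eg
      rw [two_u1 l1 la.cl hm m1 hx hx' e1 hy hy' hxy, two_u1 l2 c' h0 n0 hx hx' e3 hy hy' hxy])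
  have hN : m * m0 ∈ 𝒞(ln B P) := by
    have := mul_mem h (inv_mem (c.ab' k))
    rwa [mul_inv_rev, mul_assoc, mul_inv_cancel_left, inv_eq_of_mul_eq_one_right (om_sq h0)] at this
  have hU : m * m0 ∈ 𝒞(B ⊔ om P) := by rw [cent_sup]; exact ⟨hB, cent_mono le_sup_right hN⟩
  exact .inr (c'.om_le_of_cent e.pt (ozc_le _ hm) m1 ((mul_mem_cancel_right (c'.ab' (mem_sup_right h0))).1
    (cent_mono (l.twoA c).A'_le hU)))

theorem two_s2 (l : L4 B P S) (e : Eg B S') (h : om S' ≤ 𝒩(B ⊔ om P)) : om S' ≤ ln B P ∨ om S' ≤ ln B S := by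
  obtain ⟨a, ha, b, hb, a1, b1, ab⟩ := two_ex e.t'.toTB
  by_cases h1 : a ∈ 𝒩(ln B P)
  · exact two_single act all l e ha a1 h1
  by_cases h2 : b ∈ 𝒩(ln B P)
  · exact two_single act all l e hb b1 h2
  exact two_single act all l e (mul_mem ha hb) (fun e' => ab (mul_left_cancel ((om_sq ha).trans e'.symm)))
    ((l.twoA (all P l.toEg).1.cl).mul_mem_norm (h ha) (h hb) h1 h2)

theorem two_Q (l : L4 B P S) : pCoreOf 2 𝒩(B) ≤ 𝒩(B ⊔ om P) := by
  have UM : B ⊔ om P ≤ 𝒩(B) := l.U_le_ob.trans op_le_norm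
  have hP := isPGroup_sup' (core_isP (p := 2) 𝒩(B)) l.isP_U (UM.trans (self_le_norm_core _))
  by_contra hn
  have h1 : (pCoreOf 2 𝒩(B) ⊔ (B ⊔ om P)) ⊓ 𝒩(B ⊔ om P) < pCoreOf 2 𝒩(B) ⊔ (B ⊔ om P) :=
    lt_of_le_of_ne inf_le_left fun e => hn (le_sup_left.trans (e ▸ inf_le_right))
  obtain ⟨g, hg, hg'⟩ := SetLike.exists_of_lt (lt_inf_normalizer_of_isPGroup hP h1)
  have gB : g ∈ 𝒩(B) := sup_le (core_le _) UM hg.1
  refine hg' ⟨hg.1, mem_norm_of_cj_le ?_⟩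
  rw [cj_sup, cj_eq gB, cj_om]
  refine sup_le le_sup_left ((two_s2 act all l (l.toEg.cj_right gB) ?_).elim (·.trans l.ln_le_U)
    (·.trans (l.twoA (all P l.toEg).1.cl).A'_le))
  rw [← cj_om]
  exact (cj_le_of_le (le_inf (le_sup_right.trans le_sup_right) (le_sup_right.trans le_normalizer)) hg.2).trans inf_le_right

theorem two_le (hc : IsCharP 2 𝒩(B)) (e : Eg B P) : om P ≤ pCoreOf 2 𝒩(B) := by
  obtain ⟨la, S, l⟩ := all P e
  obtain ⟨k, -, k1, k2, -, k3⟩ := la.tor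
  have nQ := self_le_norm_core (p := 2) 𝒩(B)
  by_cases h : ∃ a ∈ om P, a ≠ 1 ∧ a ∈ pCoreOf 2 𝒩(B)
  · obtain ⟨a, ha, a1, aQ⟩ := h
    have a2 := conj_mem (nQ k1) aQ
    intro v hv
    rcases two_four ((card_om e.pt).trans l.c4) ha (conj_mem (norm_le_norm_ozc P k2) ha) a1 (mt conj_eq_one_iff.1 a1)
      (fun e' => a1 (k3 a ha e'.symm)) (om_sq ha) hv with h | h | h | h <;> rw [h]
    exacts [one_mem _, aQ, a2, mul_mem aQ a2]
  push Not at h
  have BQ : B ≤ pCoreOf 2 𝒩(B) := le_core le_normalizer e.isP le_rfl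
  have DQ : ob B ⊓ cmod (pCoreOf 2 𝒩(B)) B ≤ pCoreOf 2 𝒩(B) := le_core (inf_le_left.trans op_le_norm)
    (isPGroup_of_coprime fun x hx o => hc.eq_one (op_le_norm hx.1) o (mem_cent_of_coprime e.isP o (mem_cmod.1 hx.2).2
      (mem_cent_of_coprime (ozc_isP B) o (fun _ => ob_cel hx.1) (op_le_cent hx.1))))
    (le_norm_inf norm_ob (le_norm_cmod nQ le_rfl))
  refine fun a ha => DQ ⟨e.le_ob ha, mem_cmod.2 ⟨op_le_norm (e.le_ob ha), fun q hq => ?_⟩⟩
  have h1 := cel_mem_left hq (nQ (op_le_norm (e.le_ob ha)))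
  obtain ⟨x, hx, a', ha', e'⟩ := e.mem_U.1 (cel_mem_right (two_Q act all l hq) (mem_sup_right ha))
  rw [← e'] at h1 ⊢
  by_cases a1 : a' = 1
  · rwa [a1, mul_one]
  · exact (h a' ha' a1 ((mul_mem_cancel_left (BQ hx)).1 h1)).elim

omit act all in
theorem twoThm (act : ActThm.{u}) : TwoThm.{u} := fun hc all l _ e =>
  two_s2 act all l e ((two_le act all hc e).trans (two_Q act all l))

end CL.ATI
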